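import Mathlib

set_option autoImplicit false

/-! Conjugate real roots of a rational polynomial have the same multiplicity. -/

namespace Cfsg.Agent.Lib.FeitHigman.Galois

open Polynomial

theorem conj_mult {u u' : ℝ} (hu : IsIntegral ℚ u) (hu' : aeval u' (minpoly ℚ u) = 0)
    (F : ℚ[X]) (hF : F ≠ 0) :
    rootMultiplicity u (F.map (algebraMap ℚ ℝ)) = rootMultiplicity u' (F.map (algebraMap ℚ ℝ)) := by
  have hμ := minpoly.irreducible hu
  have hmon := minpoly.monic hu
  have hμ' : minpoly ℚ u = minpoly ℚ u' := minpoly.eq_of_irreducible_of_monic hμ hu' hmon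
  have hsep : (minpoly ℚ u).Separable := hμ.separable
  have hsepm : ((minpoly ℚ u).map (algebraMap ℚ ℝ)).Separable := hsep.map
  have hne : (minpoly ℚ u).map (algebraMap ℚ ℝ) ≠ 0 := (hmon.map _).ne_zero
  have hroot : ((minpoly ℚ u).map (algebraMap ℚ ℝ)).IsRoot u := by
    rw [IsRoot, eval_map_algebraMap]; exact minpoly.aeval ℚ u
  have hroot' : ((minpoly ℚ u).map (algebraMap ℚ ℝ)).IsRoot u' := by
    rw [IsRoot, eval_map_algebraMap]; exact hu'
  have hone : rootMultiplicity u ((minpoly ℚ u).map (algebraMap ℚ ℝ)) = 1 :=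
    le_antisymm (rootMultiplicity_le_one_of_separable hsepm u)
      ((rootMultiplicity_pos hne).2 hroot)
  have hone' : rootMultiplicity u' ((minpoly ℚ u).map (algebraMap ℚ ℝ)) = 1 :=
    le_antisymm (rootMultiplicity_le_one_of_separable hsepm u')
      ((rootMultiplicity_pos hne).2 hroot')
  have hdeg : 0 < (minpoly ℚ u).natDegree := minpoly.natDegree_pos hu
  have key : ∀ (d : ℕ) (F : ℚ[X]), F.natDegree = d → F ≠ 0 →
      rootMultiplicity u (F.map (algebraMap ℚ ℝ)) =
        rootMultiplicity u' (F.map (algebraMap ℚ ℝ)) := by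
    intro d
    induction d using Nat.strong_induction_on with
    | _ d ih =>
      intro F hd hF
      by_cases hdvd : minpoly ℚ u ∣ F
      · obtain ⟨G, rfl⟩ := hdvd
        have hG : G ≠ 0 := right_ne_zero_of_mul hF
        have hdG : G.natDegree < d := by
          rw [← hd, natDegree_mul hmon.ne_zero hG]
          omega
        have h1 := ih _ hdG G rfl hG
        have hmap : ((minpoly ℚ u).map (algebraMap ℚ ℝ)) * G.map (algebraMap ℚ ℝ) ≠ 0 :=
          mul_ne_zero hne ((Polynomial.map_ne_zero_iff (algebraMap ℚ ℝ).injective).2 hG)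
        rw [Polynomial.map_mul, rootMultiplicity_mul hmap, rootMultiplicity_mul hmap, hone, hone',
          h1]
      · have h1 : ¬ (F.map (algebraMap ℚ ℝ)).IsRoot u := by
          intro hr
          rw [IsRoot, eval_map_algebraMap] at hr
          exact hdvd (minpoly.dvd ℚ u hr)
        have h2 : ¬ (F.map (algebraMap ℚ ℝ)).IsRoot u' := by
          intro hr
          rw [IsRoot, eval_map_algebraMap] at hr
          apply hdvd
          rw [hμ']
          exact minpoly.dvd ℚ u' hr
        rw [rootMultiplicity_eq_zero h1, rootMultiplicity_eq_zero h2]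
  exact key _ F rfl hF

theorem exists_other_root {u : ℝ} (hu : IsIntegral ℚ u) (hnot : u ∉ (algebraMap ℚ ℝ).range)
    {F : ℚ[X]} (hF : F ≠ 0) (hFu : aeval u F = 0) (hsplit : (F.map (algebraMap ℚ ℝ)).Splits) :
    ∃ u' : ℝ, u' ≠ u ∧ aeval u' (minpoly ℚ u) = 0 := by
  have hmon := minpoly.monic hu
  have hμ := minpoly.irreducible hu
  have hdvd : minpoly ℚ u ∣ F := minpoly.dvd ℚ u hFu
  have hFm : F.map (algebraMap ℚ ℝ) ≠ 0 :=
    (Polynomial.map_ne_zero_iff (algebraMap ℚ ℝ).injective).2 hF
  have hs : ((minpoly ℚ u).map (algebraMap ℚ ℝ)).Splits :=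
    Splits.of_dvd hsplit hFm (Polynomial.map_dvd _ hdvd)
  have hcard := hs.natDegree_eq_card_roots
  have hdeg : 2 ≤ (minpoly ℚ u).natDegree := (minpoly.two_le_natDegree_iff hu).2 hnot
  rw [natDegree_map] at hcard
  have hnd : ((minpoly ℚ u).map (algebraMap ℚ ℝ)).roots.Nodup :=
    nodup_roots hμ.separable.map
  have h1 : 1 < ((minpoly ℚ u).map (algebraMap ℚ ℝ)).roots.toFinset.card := by
    rw [Multiset.toFinset_card_of_nodup hnd]
    omega
  obtain ⟨b, hb, hbu⟩ := Finset.exists_mem_ne h1 u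
  refine ⟨b, hbu, ?_⟩
  rw [Multiset.mem_toFinset] at hb
  have h2 := isRoot_of_mem_roots hb
  rw [IsRoot, eval_map_algebraMap] at h2
  exact h2

end Cfsg.Agent.Lib.FeitHigman.Galois
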