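import Mathlib

set_option autoImplicit false
set_option linter.unusedSimpArgs false

/-! Chebyshev-type polynomials with parameter `Q`, their values at `2 α cos ψ` and a real
root analysis; discrete Fourier orthogonality. -/

namespace Cfsg.Agent.Lib.FeitHigman.Cheb

open Polynomial Real

/-- `W 0 = 0, W 1 = 1, W (k+2) = X W (k+1) - Q W k`. -/
noncomputable def W (Q : ℝ) : ℕ → ℝ[X]
  | 0 => 0
  | 1 => 1
  | k + 2 => X * W Q (k + 1) - C Q * W Q k

/-- `Ch 0 = 2, Ch 1 = X, Ch (k+2) = X Ch (k+1) - Q Ch k`. -/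
noncomputable def Ch (Q : ℝ) : ℕ → ℝ[X]
  | 0 => 2
  | 1 => X
  | k + 2 => X * Ch Q (k + 1) - C Q * Ch Q k

@[simp] theorem W_zero (Q : ℝ) : W Q 0 = 0 := rfl
@[simp] theorem W_one (Q : ℝ) : W Q 1 = 1 := rfl
theorem W_add_two (Q : ℝ) (k : ℕ) : W Q (k + 2) = X * W Q (k + 1) - C Q * W Q k := rfl
@[simp] theorem Ch_zero (Q : ℝ) : Ch Q 0 = 2 := rfl
@[simp] theorem Ch_one (Q : ℝ) : Ch Q 1 = X := rfl
theorem Ch_add_two (Q : ℝ) (k : ℕ) : Ch Q (k + 2) = X * Ch Q (k + 1) - C Q * Ch Q k := rfl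

/-- `Ch (k+1) = X W (k+1) - 2 Q W k` -/
theorem Ch_eq (Q : ℝ) : ∀ k : ℕ, Ch Q (k + 1) = X * W Q (k + 1) - C (2 * Q) * W Q k
  | 0 => by simp
  | 1 => by
    have : (C (2 * Q) : ℝ[X]) = 2 * C Q := by rw [C_mul, map_ofNat]
    rw [Ch_add_two, W_add_two, this]
    simp
    ring
  | k + 2 => by
    rw [Ch_add_two, Ch_eq Q (k + 1), Ch_eq Q k, W_add_two Q (k + 1), W_add_two Q k]
    ring

section Trig

variable {α : ℝ}

theorem eval_W (hα : α ≠ 0) (ψ : ℝ) : ∀ k : ℕ,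
    (W (α ^ 2) (k + 1)).eval (2 * α * cos ψ) * sin ψ = α ^ k * sin ((k + 1) * ψ)
  | 0 => by simp
  | 1 => by
    have e : W (α ^ 2) 2 = X := by
      have := W_add_two (α ^ 2) 0
      simpa using this
    rw [show (1 : ℕ) + 1 = 2 from rfl, e]
    simp only [eval_X, pow_one]
    have : sin (((1 : ℕ) + 1 : ℝ) * ψ) = 2 * sin ψ * cos ψ := by
      rw [← sin_two_mul]; norm_num
    rw [this]; ring
  | k + 2 => by
    have h1 := eval_W hα ψ (k + 1)
    have h0 := eval_W hα ψ k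
    rw [show k + 2 + 1 = (k + 1) + 2 from rfl, W_add_two]
    simp only [eval_sub, eval_mul, eval_X, eval_C]
    have e1 : (2 * α * cos ψ * eval (2 * α * cos ψ) (W (α ^ 2) (k + 1 + 1)) -
        α ^ 2 * eval (2 * α * cos ψ) (W (α ^ 2) (k + 1))) * sin ψ =
        2 * α * cos ψ * (eval (2 * α * cos ψ) (W (α ^ 2) (k + 1 + 1)) * sin ψ) -
        α ^ 2 * (eval (2 * α * cos ψ) (W (α ^ 2) (k + 1)) * sin ψ) := by ring
    rw [e1, h1, h0]
    have e2 : (((k + 2 : ℕ) : ℝ) + 1) * ψ = (((k + 1 : ℕ) : ℝ) + 1) * ψ + ψ := by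
      push_cast; ring
    have e3 : ((k : ℝ) + 1) * ψ = (((k + 1 : ℕ) : ℝ) + 1) * ψ - ψ := by
      push_cast; ring
    rw [e2, e3, sin_add, sin_sub]
    ring

theorem eval_Ch (ψ : ℝ) : ∀ k : ℕ,
    (Ch (α ^ 2) k).eval (2 * α * cos ψ) = 2 * α ^ k * cos (k * ψ)
  | 0 => by simp
  | 1 => by simp
  | k + 2 => by
    have h1 := eval_Ch ψ (k + 1)
    have h0 := eval_Ch ψ k
    rw [Ch_add_two]
    simp only [eval_sub, eval_mul, eval_X, eval_C, h1, h0]
    have e2 : ((k + 2 : ℕ) : ℝ) * ψ = ((k + 1 : ℕ) : ℝ) * ψ + ψ := by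
      push_cast; ring
    have e3 : (k : ℝ) * ψ = ((k + 1 : ℕ) : ℝ) * ψ - ψ := by
      push_cast; ring
    rw [e2, e3, cos_add, cos_sub]
    ring

end Trig

section Roots

variable {α : ℝ}

theorem W_pos_of_ge (hα : 0 < α) {x : ℝ} (hx : 2 * α ≤ x) : ∀ k : ℕ,
    0 < (W (α ^ 2) (k + 1)).eval x ∧
      α * (W (α ^ 2) k).eval x ≤ (W (α ^ 2) (k + 1)).eval x
  | 0 => by
    simp
  | k + 1 => by
    obtain ⟨h1, h2⟩ := W_pos_of_ge hα hx k
    have e : eval x (W (α ^ 2) (k + 1 + 1)) =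
        x * eval x (W (α ^ 2) (k + 1)) - α ^ 2 * eval x (W (α ^ 2) k) := by
      rw [W_add_two]; simp
    have h3 : 2 * α * eval x (W (α ^ 2) (k + 1)) ≤ x * eval x (W (α ^ 2) (k + 1)) :=
      mul_le_mul_of_nonneg_right hx h1.le
    have h4 : α ^ 2 * eval x (W (α ^ 2) k) ≤ α * eval x (W (α ^ 2) (k + 1)) := by
      have := mul_le_mul_of_nonneg_left h2 hα.le
      nlinarith
    have h5 : α * eval x (W (α ^ 2) (k + 1)) ≤ eval x (W (α ^ 2) (k + 1 + 1)) := by
      rw [e]; linarith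
    exact ⟨lt_of_lt_of_le (mul_pos hα h1) h5, h5⟩

theorem W_neg_eval (Q x : ℝ) : ∀ k : ℕ,
    (W Q (k + 1)).eval (-x) = (-1) ^ k * (W Q (k + 1)).eval x
  | 0 => by simp
  | 1 => by
    have e : W Q 2 = X := by
      have := W_add_two Q 0
      simpa using this
    rw [show 1 + 1 = 2 from rfl, e]; simp
  | k + 2 => by
    have h1 := W_neg_eval Q x (k + 1)
    have h0 := W_neg_eval Q x k
    rw [show k + 2 + 1 = (k + 1) + 2 from rfl, W_add_two]
    simp only [eval_sub, eval_mul, eval_X, eval_C, h1, h0]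
    ring

/-- Root analysis: `W n x = 0` with `W (n-1) x ≤ 0` forces `x = 2 α cos (2 π j / n)`. -/
theorem spec_real (hα : 0 < α) {n : ℕ} (hn : 2 ≤ n) {x : ℝ}
    (h0 : (W (α ^ 2) n).eval x = 0) (h1 : (W (α ^ 2) (n - 1)).eval x ≤ 0) :
    ∃ j : ℕ, 0 < 2 * j ∧ 2 * j < n ∧ x = 2 * α * cos (2 * π * j / n) := by
  obtain ⟨m, rfl⟩ : ∃ m, n = m + 2 := ⟨n - 2, by omega⟩
  have h0' : (W (α ^ 2) (m + 1 + 1)).eval x = 0 := h0
  have h1' : (W (α ^ 2) (m + 1)).eval x ≤ 0 := h1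
  -- first `|x| < 2 α`
  have hlt : x < 2 * α := by
    by_contra h
    push Not at h
    have := (W_pos_of_ge hα h (m + 1)).1
    linarith
  have hgt : -(2 * α) < x := by
    by_contra h
    push Not at h
    have h2 : 2 * α ≤ -x := by linarith
    have := (W_pos_of_ge hα h2 (m + 1)).1
    rw [W_neg_eval, h0'] at this
    simp at this
  set c := x / (2 * α) with hc
  have hc1 : -1 < c := by
    rw [hc, lt_div_iff₀ (by positivity)]; linarith
  have hc2 : c < 1 := by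
    rw [hc, div_lt_one (by positivity)]; exact hlt
  set ψ := arccos c with hψ
  have hcos : cos ψ = c := cos_arccos hc1.le hc2.le
  have hψ0 : 0 < ψ := arccos_pos.2 hc2
  have hψπ : ψ < π := by
    refine lt_of_le_of_ne (arccos_le_pi c) ?_
    rw [Ne, hψ, arccos_eq_pi]
    linarith
  have hsin : 0 < sin ψ := sin_pos_of_pos_of_lt_pi hψ0 hψπ
  have hx : x = 2 * α * cos ψ := by
    rw [hcos, hc]; field_simp
  have e1 := eval_W hα.ne' ψ (m + 1)
  rw [← hx, h0', zero_mul] at e1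
  have e2 := eval_W hα.ne' ψ m
  rw [← hx] at e2
  have hαpow : ∀ k : ℕ, 0 < α ^ k := fun k => pow_pos hα k
  have hs1 : sin ((((m + 1 : ℕ) : ℝ) + 1) * ψ) = 0 := by
    have := e1.symm
    rcases mul_eq_zero.1 this with h | h
    · exact absurd h (hαpow _).ne'
    · exact h
  have hs2 : sin (((m : ℝ) + 1) * ψ) ≤ 0 := by
    have h3 : α ^ m * sin (((m : ℝ) + 1) * ψ) ≤ 0 := by
      rw [← e2]
      exact mul_nonpos_of_nonpos_of_nonneg h1' hsin.le
    by_contra h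
    push Not at h
    have := mul_pos (hαpow m) h
    linarith
  obtain ⟨t, ht⟩ := sin_eq_zero_iff.1 hs1
  have hnpos : (0 : ℝ) < ((m + 1 : ℕ) : ℝ) + 1 := by positivity
  have ht' : (t : ℝ) * π = ((m + 2 : ℕ) : ℝ) * ψ := by
    rw [ht]; push_cast; ring
  -- `t` must be even
  have hcosπ : cos (((m + 2 : ℕ) : ℝ) * ψ) = (-1 : ℝ) ^ t := by
    rw [← ht']
    exact cos_int_mul_pi t
  have hsub : ((m : ℝ) + 1) * ψ = ((m + 2 : ℕ) : ℝ) * ψ - ψ := by
    push_cast; ring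
  have hs3 : sin (((m : ℝ) + 1) * ψ) = -(cos (((m + 2 : ℕ) : ℝ) * ψ) * sin ψ) := by
    rw [hsub, sin_sub]
    have : sin (((m + 2 : ℕ) : ℝ) * ψ) = 0 := by
      rw [← hs1]; congr 1; push_cast; ring
    rw [this]; ring
  rw [hs3, hcosπ] at hs2
  have hteven : Even t := by
    by_contra hodd
    rw [Int.not_even_iff_odd] at hodd
    rw [hodd.neg_one_zpow] at hs2
    nlinarith
  obtain ⟨j', hj'⟩ := hteven
  have hψpos2 : 0 < ((m + 2 : ℕ) : ℝ) * ψ := by positivity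
  have htpos : 0 < t := by
    have : (0 : ℝ) < (t : ℝ) * π := by rw [ht']; exact hψpos2
    have h3 : (0 : ℝ) < t := by
      by_contra h
      push Not at h
      have := mul_nonpos_of_nonpos_of_nonneg h pi_pos.le
      linarith
    exact_mod_cast h3
  obtain ⟨j, rfl⟩ : ∃ j : ℕ, j' = (j : ℤ) := ⟨j'.toNat, by omega⟩
  have hnat : (t : ℝ) = ((2 * j : ℕ) : ℝ) := by
    rw [hj']; push_cast; ring
  refine ⟨j, ?_, ?_, ?_⟩
  · omega
  · -- `t π = n ψ < n π`
    have h3 : (t : ℝ) * π < ((m + 2 : ℕ) : ℝ) * π := by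
      rw [ht']
      exact mul_lt_mul_of_pos_left hψπ (by positivity)
    have h4 : (t : ℝ) < ((m + 2 : ℕ) : ℝ) := lt_of_mul_lt_mul_right h3 pi_pos.le
    rw [hnat] at h4
    exact_mod_cast h4
  · rw [hx]
    congr 2
    have hn0 : ((m + 2 : ℕ) : ℝ) ≠ 0 := by positivity
    rw [eq_div_iff hn0]
    rw [hnat] at ht'
    push_cast at ht' ⊢
    linarith

end Roots

section Fourier

/-- the sum of `cos (2 π k t / n)` over a period vanishes when `n ∤ t`. -/
theorem sum_cos_eq_zero {n : ℕ} (hn : 0 < n) {t : ℤ} (ht : ¬ (n : ℤ) ∣ t) :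
    ∑ k ∈ Finset.range n, cos (2 * π * k * t / n) = 0 := by
  have hn0 : (n : ℂ) ≠ 0 := by exact_mod_cast hn.ne'
  set ζ : ℂ := Complex.exp (2 * π * Complex.I * t / n) with hζ
  have h1 : ζ ^ n = 1 := by
    rw [hζ, ← Complex.exp_nat_mul]
    have : (n : ℂ) * (2 * π * Complex.I * t / n) = t * (2 * π * Complex.I) := by
      field_simp
    rw [this]
    exact Complex.exp_int_mul_two_pi_mul_I t
  have h2 : ζ ≠ 1 := by
    intro h
    rw [hζ, Complex.exp_eq_one_iff] at h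
    obtain ⟨m, hm⟩ := h
    apply ht
    refine ⟨m, ?_⟩
    have hpi : (2 * π * Complex.I : ℂ) ≠ 0 := by
      simp [Real.pi_ne_zero]
    have : (t : ℂ) = n * m := by
      field_simp at hm
      exact hm
    exact_mod_cast this
  have h3 : ∑ k ∈ Finset.range n, ζ ^ k = 0 := by
    have := geom_sum_mul ζ n
    rw [h1, sub_self] at this
    rcases mul_eq_zero.1 this with h | h
    · exact h
    · exact absurd (sub_eq_zero.1 h) h2
  have h4 : ∀ k : ℕ, (ζ ^ k).re = cos (2 * π * k * t / n) := by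
    intro k
    rw [hζ, ← Complex.exp_nat_mul]
    have : (k : ℂ) * (2 * π * Complex.I * t / n) =
        ((2 * π * k * t / n : ℝ) : ℂ) * Complex.I := by
      push_cast; ring
    rw [this, Complex.exp_ofReal_mul_I_re]
  have h5 := congrArg Complex.re h3
  rw [Complex.re_sum] at h5
  simp only [h4, Complex.zero_re] at h5
  exact h5

/-- orthogonality of the cosines on `ℤ / n`. -/
theorem sum_cos_mul_cos {n j j' : ℕ} (hj : 0 < 2 * j) (hjn : 2 * j < n) (hj' : 0 < 2 * j')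
    (hjn' : 2 * j' < n) :
    ∑ k ∈ Finset.range n, cos (k * (2 * π * j / n)) * (2 * cos (k * (2 * π * j' / n))) =
      if j = j' then (n : ℝ) else 0 := by
  have hn : 0 < n := by omega
  have hn0 : (n : ℝ) ≠ 0 := by positivity
  have e : ∀ k : ℕ, cos (k * (2 * π * j / n)) * (2 * cos (k * (2 * π * j' / n))) =
      cos (2 * π * k * ((j : ℤ) + j' : ℤ) / n) + cos (2 * π * k * ((j : ℤ) - j' : ℤ) / n) := by
    intro k
    have e1 : 2 * π * k * (((j : ℤ) + j' : ℤ) : ℝ) / n =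
        k * (2 * π * j / n) + k * (2 * π * j' / n) := by
      push_cast; field_simp
    have e2 : 2 * π * k * (((j : ℤ) - j' : ℤ) : ℝ) / n =
        k * (2 * π * j / n) - k * (2 * π * j' / n) := by
      push_cast; field_simp
    rw [e1, e2, cos_add, cos_sub]
    ring
  simp only [e]
  rw [Finset.sum_add_distrib]
  have h1 : ¬ (n : ℤ) ∣ ((j : ℤ) + j' : ℤ) := by
    intro h
    have h2 : (0 : ℤ) < (j : ℤ) + j' := by omega
    have := Int.le_of_dvd h2 h
    omega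
  rw [sum_cos_eq_zero hn h1, zero_add]
  split_ifs with hjj
  · subst hjj
    simp only [sub_self, Int.cast_zero, mul_zero, zero_div, cos_zero]
    simp
  · apply sum_cos_eq_zero hn
    intro h
    have h2 : ((j : ℤ) - j' : ℤ) ≠ 0 := by omega
    have h3 := Int.eq_zero_of_abs_lt_dvd h (by
      rw [abs_lt]; constructor <;> omega)
    exact h2 h3

end Fourier

end Cfsg.Agent.Lib.FeitHigman.Cheb
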