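import Mathlib

set_option autoImplicit false
set_option linter.unusedSimpArgs false

/-! Ring identities for two elements `T₁, T₂` with quadratic relations
`Tᵢ² = (qᵢ - 1) Tᵢ + qᵢ` (the Hecke algebra of the infinite dihedral group), used for the
Feit-Higman theorem. -/

namespace Cfsg.Agent.Lib.FeitHigman.Hecke

open Polynomial

variable {R : Type*} [Ring R] [Algebra ℝ R]

/-- the central element `T₁T₂ + T₂T₁ - (q₂-1)T₁ - (q₁-1)T₂ + (q₁-1)(q₂-1)`. -/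
noncomputable def zOp (T₁ T₂ : R) (q₁ q₂ : ℝ) : R :=
  T₁ * T₂ + T₂ * T₁ - (q₂ - 1) • T₁ - (q₁ - 1) • T₂ + ((q₁ - 1) * (q₂ - 1)) • 1

/-- the quadratic relation -/
def Quad (T : R) (q : ℝ) : Prop := T * T = (q - 1) • T + q • 1

variable {T₁ T₂ : R} {q₁ q₂ : ℝ}

theorem Quad.mul_left {T : R} {q : ℝ} (h : Quad T q) (x : R) :
    T * (T * x) = (q - 1) • (T * x) + q • x := by
  rw [← mul_assoc, h]
  simp [add_mul, smul_mul_assoc]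

theorem zOp_comm₁ (h₁ : Quad T₁ q₁) : zOp T₁ T₂ q₁ q₂ * T₁ = T₁ * zOp T₁ T₂ q₁ q₂ := by
  unfold zOp
  simp only [mul_add, add_mul, mul_sub, sub_mul, smul_mul_assoc, mul_smul_comm, mul_one, one_mul,
    mul_assoc, h₁.mul_left, show T₁ * T₁ = _ from h₁]
  module

theorem zOp_comm₂ (h₂ : Quad T₂ q₂) : zOp T₁ T₂ q₁ q₂ * T₂ = T₂ * zOp T₁ T₂ q₁ q₂ := by
  unfold zOp
  simp only [mul_add, add_mul, mul_sub, sub_mul, smul_mul_assoc, mul_smul_comm, mul_one, one_mul,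
    mul_assoc, h₂.mul_left, show T₂ * T₂ = _ from h₂]
  module

theorem D_sq (h₁ : Quad T₁ q₁) (h₂ : Quad T₂ q₂) :
    (T₁ * T₂) * (T₁ * T₂) = zOp T₁ T₂ q₁ q₂ * (T₁ * T₂) - (q₁ * q₂) • 1 := by
  unfold zOp
  simp only [mul_add, add_mul, mul_sub, sub_mul, smul_mul_assoc, mul_smul_comm, mul_one, one_mul,
    mul_assoc, h₁.mul_left, h₂.mul_left, show T₁ * T₁ = _ from h₁, show T₂ * T₂ = _ from h₂]
  module

theorem D'_sq (h₁ : Quad T₁ q₁) (h₂ : Quad T₂ q₂) :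
    (T₂ * T₁) * (T₂ * T₁) = zOp T₁ T₂ q₁ q₂ * (T₂ * T₁) - (q₁ * q₂) • 1 := by
  unfold zOp
  simp only [mul_add, add_mul, mul_sub, sub_mul, smul_mul_assoc, mul_smul_comm, mul_one, one_mul,
    mul_assoc, h₁.mul_left, h₂.mul_left, show T₁ * T₁ = _ from h₁, show T₂ * T₂ = _ from h₂]
  module

/-- `(Q + 1 - z)(S + z) = -(T₁T₂ - T₂T₁)²` -/
theorem ell_eq (h₁ : Quad T₁ q₁) (h₂ : Quad T₂ q₂) :
    ((q₁ * q₂ + 1) • (1 : R) - zOp T₁ T₂ q₁ q₂) * ((q₁ + q₂) • (1 : R) + zOp T₁ T₂ q₁ q₂) =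
      -((T₁ * T₂ - T₂ * T₁) * (T₁ * T₂ - T₂ * T₁)) := by
  unfold zOp
  simp only [mul_add, add_mul, mul_sub, sub_mul, smul_mul_assoc, mul_smul_comm, mul_one, one_mul,
    mul_assoc, h₁.mul_left, h₂.mul_left, show T₁ * T₁ = _ from h₁, show T₂ * T₂ = _ from h₂]
  module

/-- `c = T₁T₂ - T₂T₁` anticommutes with `e = z - T₁T₂ - T₂T₁`. -/
theorem anticomm (h₁ : Quad T₁ q₁) (h₂ : Quad T₂ q₂) :
    (T₁ * T₂ - T₂ * T₁) * (zOp T₁ T₂ q₁ q₂ - T₁ * T₂ - T₂ * T₁) =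
      -((zOp T₁ T₂ q₁ q₂ - T₁ * T₂ - T₂ * T₁) * (T₁ * T₂ - T₂ * T₁)) := by
  unfold zOp
  simp only [mul_add, add_mul, mul_sub, sub_mul, smul_mul_assoc, mul_smul_comm, mul_one, one_mul,
    mul_assoc, h₁.mul_left, h₂.mul_left, show T₁ * T₁ = _ from h₁, show T₂ * T₂ = _ from h₂]
  module

end Cfsg.Agent.Lib.FeitHigman.Hecke
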