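import Mathlib
import Cfsg.Agent.Lib.FeitHigman.Hecke
import Cfsg.Agent.Lib.FeitHigman.Cheb

set_option autoImplicit false
set_option linter.unusedSimpArgs false

/-! Traces in the Hecke algebra of a rank two `(B,N)`-pair on `ℝ^Ω`. -/

namespace Cfsg.Agent.Lib.FeitHigman.Trace

open Polynomial Matrix Cfsg.Agent.Lib.FeitHigman.Hecke Cfsg.Agent.Lib.FeitHigman.Cheb

/-- alternating product. -/
def alt {R : Type*} [Monoid R] (a b : R) : ℕ → R
  | 0 => 1
  | k + 1 => a * alt b a k

section AltGen
variable {R : Type*} [Monoid R]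

@[simp] theorem alt_zero (a b : R) : alt a b 0 = 1 := rfl
theorem alt_succ (a b : R) (k : ℕ) : alt a b (k + 1) = a * alt b a k := rfl

theorem alt_succ_right (a b : R) : ∀ k : ℕ,
    alt a b (k + 1) = alt a b k * (if Even k then a else b)
  | 0 => by simp [alt]
  | k + 1 => by
    rw [alt_succ, alt_succ_right b a k, ← mul_assoc, ← alt_succ]
    by_cases h : Even k
    · have h' : ¬ Even (k + 1) := by simpa [Nat.even_add_one] using h
      simp [h, h']
    · have h' : Even (k + 1) := by
        rw [Nat.even_add_one]; exact h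
      simp [h, h']

theorem alt_add (a b : R) : ∀ k l : ℕ,
    alt a b (k + l) = alt a b k * (if Even k then alt a b l else alt b a l)
  | 0, l => by simp
  | k + 1, l => by
    have e : k + 1 + l = (k + l) + 1 := by omega
    rw [e, alt_succ, alt_add b a k l, alt_succ, mul_assoc]
    by_cases h : Even k
    · have h' : ¬ Even (k + 1) := by simpa [Nat.even_add_one] using h
      simp [h, h']
    · have h' : Even (k + 1) := by
        rw [Nat.even_add_one]; exact h
      simp [h, h']

theorem alt_two_mul (a b : R) : ∀ k : ℕ, alt a b (2 * k) = (a * b) ^ k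
  | 0 => by simp
  | k + 1 => by
    rw [show 2 * (k + 1) = 2 * k + 1 + 1 by ring, alt_succ, alt_succ, alt_two_mul a b k, pow_succ',
      mul_assoc]

end AltGen

section Transpose
variable {Ω : Type*} [Fintype Ω]

theorem alt_transpose {a b : Matrix Ω Ω ℝ} [DecidableEq Ω] (ha : aᵀ = a) (hb : bᵀ = b) :
    ∀ k : ℕ, (alt a b k)ᵀ = if Even k then alt b a k else alt a b k := by
  have key : ∀ (a b : Matrix Ω Ω ℝ), aᵀ = a → bᵀ = b → ∀ k : ℕ,
      (alt a b k)ᵀ = if Even k then alt b a k else alt a b k := by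
    intro a b ha hb k
    induction k generalizing a b with
    | zero => simp
    | succ k ih =>
      rw [alt_succ, transpose_mul, ih b a hb ha, ha]
      by_cases h : Even k
      · have h' : ¬ Even (k + 1) := by simpa [Nat.even_add_one] using h
        simp only [h, h', if_true, if_false]
        rw [← alt_succ, alt_succ_right a b k]
        simp [h]
      · have h' : Even (k + 1) := by
          rw [Nat.even_add_one]; exact h
        simp only [h, h', if_true, if_false]
        rw [alt_succ_right b a k]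
        simp [h]
  exact key a b ha hb

end Transpose

section PolyGen
variable {R : Type*} [Ring R] [Algebra ℝ R]

theorem aeval_comm {z x : R} (h : z * x = x * z) (p : ℝ[X]) :
    aeval z p * x = x * aeval z p := by
  have hc : Commute (aeval z p) x := by
    induction p using Polynomial.induction_on' with
    | add p q hp hq =>
      rw [map_add]; exact hp.add_left hq
    | monomial k a =>
      rw [aeval_monomial]
      have h1 : Commute z x := h
      exact (Algebra.commute_algebraMap_left a x).mul_left (h1.pow_left k)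
  exact hc

end PolyGen

section Setup

variable {Ω : Type*} [Fintype Ω] [DecidableEq Ω]

/-- The hypotheses of the abstract Feit-Higman theorem. -/
structure Hyp (T₁ T₂ : Matrix Ω Ω ℝ) (q₁ q₂ : ℝ) (n : ℕ) : Prop where
  sym₁ : T₁ᵀ = T₁
  sym₂ : T₂ᵀ = T₂
  quad₁ : Quad T₁ q₁
  quad₂ : Quad T₂ q₂
  tr₁ : trace T₁ = 0
  tr₂ : trace T₂ = 0
  trD : ∀ j : ℕ, 1 ≤ j → j < n → trace ((T₁ * T₂) ^ j) = 0
  braid : alt T₁ T₂ n = alt T₂ T₁ n

variable {T₁ T₂ : Matrix Ω Ω ℝ} {q₁ q₂ : ℝ} {n : ℕ}

namespace Hyp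

variable (h : Hyp T₁ T₂ q₁ q₂ n)

include h

local notation "z" => zOp T₁ T₂ q₁ q₂
local notation "D" => T₁ * T₂
local notation "D'" => T₂ * T₁
local notation "Q" => q₁ * q₂
local notation "N" => ((Fintype.card Ω : ℕ) : ℝ)

theorem transpose_D : (D)ᵀ = D' := by
  rw [transpose_mul, h.sym₁, h.sym₂]

theorem transpose_D' : (D')ᵀ = D := by
  rw [transpose_mul, h.sym₁, h.sym₂]

theorem trD' {j : ℕ} (h1 : 1 ≤ j) (h2 : j < n) : trace ((D') ^ j) = 0 := by
  rw [← trace_transpose, transpose_pow, h.transpose_D', h.trD j h1 h2]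

theorem transpose_z : (z)ᵀ = z := by
  unfold zOp
  simp only [transpose_add, transpose_sub, transpose_smul, transpose_mul, h.sym₁, h.sym₂,
    transpose_one]
  abel

theorem comm₁ : z * T₁ = T₁ * z := zOp_comm₁ h.quad₁

theorem comm₂ : z * T₂ = T₂ * z := zOp_comm₂ h.quad₂

theorem comm_D : z * (D) = (D) * z := by
  rw [← mul_assoc, h.comm₁, mul_assoc, h.comm₂, mul_assoc]

theorem comm_D' : z * (D') = (D') * z := by
  rw [← mul_assoc, h.comm₂, mul_assoc, h.comm₁, mul_assoc]

/-- `z D^(k+1) = D^(k+2) + Q D^k` -/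
theorem z_mul_pow (k : ℕ) : z * (D) ^ (k + 1) = (D) ^ (k + 2) + (Q) • (D) ^ k := by
  have h1 := D_sq h.quad₁ h.quad₂
  have h2 : z * (D) = (D) * (D) + (Q) • 1 := by
    rw [h1]; abel
  rw [pow_succ', ← mul_assoc, h2, add_mul, smul_mul_assoc, one_mul, mul_assoc, ← pow_succ',
    ← pow_succ']

/-- Chebyshev expansion of powers of `D`. -/
theorem pow_eq (k : ℕ) :
    (D) ^ (k + 1) = aeval z (W Q (k + 1)) * (D) - (Q) • aeval z (W Q k) := by
  induction k using Nat.twoStepInduction with
  | zero => simp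
  | one =>
    have h1 := D_sq h.quad₁ h.quad₂
    have e : W (Q) 2 = X := by
      have := W_add_two (Q) 0
      simpa using this
    rw [show 1 + 1 = 2 from rfl, e, pow_two, h1]
    simp
  | more k ih0 ih1 =>
    have h1 := D_sq h.quad₁ h.quad₂
    have hc : aeval z (W (Q) (k + 1 + 1)) * z = z * aeval z (W (Q) (k + 1 + 1)) :=
      aeval_comm rfl _
    rw [pow_succ, ih1, W_add_two (Q) (k + 1)]
    simp only [map_sub, map_mul, aeval_X, aeval_C, Algebra.algebraMap_eq_smul_one,
      smul_mul_assoc, one_mul]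
    rw [sub_mul, mul_assoc, h1, mul_sub, ← mul_assoc, hc, smul_mul_assoc, sub_mul, smul_mul_assoc,
      mul_smul_comm, mul_one]
    simp only [smul_mul_assoc]
    module

theorem pow_eq' (k : ℕ) :
    (D') ^ (k + 1) = aeval z (W Q (k + 1)) * (D') - (Q) • aeval z (W Q k) := by
  induction k using Nat.twoStepInduction with
  | zero => simp
  | one =>
    have h1 := D'_sq h.quad₁ h.quad₂
    have e : W (Q) 2 = X := by
      have := W_add_two (Q) 0
      simpa using this
    rw [show 1 + 1 = 2 from rfl, e, pow_two, h1]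
    simp
  | more k ih0 ih1 =>
    have h1 := D'_sq h.quad₁ h.quad₂
    have hc : aeval z (W (Q) (k + 1 + 1)) * z = z * aeval z (W (Q) (k + 1 + 1)) :=
      aeval_comm rfl _
    rw [pow_succ, ih1, W_add_two (Q) (k + 1)]
    simp only [map_sub, map_mul, aeval_X, aeval_C, Algebra.algebraMap_eq_smul_one,
      smul_mul_assoc, one_mul]
    rw [sub_mul, mul_assoc, h1, mul_sub, ← mul_assoc, hc, smul_mul_assoc, sub_mul, smul_mul_assoc,
      mul_smul_comm, mul_one]
    simp only [smul_mul_assoc]
    module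

end Hyp

/-- the operator `(Q + 1 - z)(S + z)` -/
noncomputable def LOp (T₁ T₂ : Matrix Ω Ω ℝ) (q₁ q₂ : ℝ) : Matrix Ω Ω ℝ :=
  ((q₁ * q₂ + 1) • (1 : Matrix Ω Ω ℝ) - zOp T₁ T₂ q₁ q₂) *
    ((q₁ + q₂) • (1 : Matrix Ω Ω ℝ) + zOp T₁ T₂ q₁ q₂)

local notation "z" => zOp T₁ T₂ q₁ q₂
local notation "D" => T₁ * T₂
local notation "D'" => T₂ * T₁
local notation "Q" => q₁ * q₂
local notation "N" => ((Fintype.card Ω : ℕ) : ℝ)
local notation "L" => LOp T₁ T₂ q₁ q₂
local notation "κ" => (q₁ - 1) * (q₂ - 1)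

theorem L_mul (X : Matrix Ω Ω ℝ) : L * X =
    ((q₁ * q₂ + 1) * (q₁ + q₂)) • X + ((q₁ - 1) * (q₂ - 1)) • (z * X) - z * (z * X) := by
  unfold LOp
  simp only [sub_mul, add_mul, mul_add, mul_sub, smul_mul_assoc, mul_smul_comm, one_mul, mul_one,
    mul_assoc]
  simp only [smul_sub, smul_add, smul_smul]
  module

namespace Hyp

variable (h : Hyp T₁ T₂ q₁ q₂ n)

include h

theorem tr_D (hn : 2 ≤ n) : trace (D) = 0 := by
  have := h.trD 1 le_rfl (by omega)
  simpa using this

theorem tr_D' (hn : 2 ≤ n) : trace (D') = 0 := by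
  have := h.trD' (j := 1) le_rfl (by omega)
  simpa using this

theorem tr_z (hn : 2 ≤ n) : trace z = κ * N := by
  unfold zOp
  simp only [trace_add, trace_sub, trace_smul, h.tr_D hn, h.tr_D' hn, h.tr₁, h.tr₂, trace_one]
  simp

theorem tr_zT₁ (hn : 2 ≤ n) : trace (z * T₁) = -((q₂ - 1) * q₁) * N := by
  have e1 : z * T₁ = (T₁ * T₁) * T₂ + q₁ • T₂ - ((q₂ - 1) * q₁) • 1 + (T₁ * T₂ * T₁ - (T₁ * T₁) * T₂) := by
    have h1 := h.quad₁
    unfold Quad at h1
    unfold zOp
    simp only [h1, add_mul, sub_mul, smul_mul_assoc, mul_assoc, mul_add, mul_smul_comm, one_mul,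
      mul_one]
    module
  rw [e1, trace_add, trace_sub (T₁ * T₂ * T₁), trace_mul_comm (T₁ * T₂) T₁, ← mul_assoc T₁ T₁ T₂,
    sub_self, add_zero, trace_sub, trace_add, trace_smul, trace_smul, trace_one]
  have h1 := h.quad₁
  unfold Quad at h1
  rw [h1, add_mul, trace_add, smul_mul_assoc, smul_mul_assoc, one_mul, trace_smul, trace_smul,
    h.tr_D hn, h.tr₂]
  simp

theorem tr_zT₂ (hn : 2 ≤ n) : trace (z * T₂) = -((q₁ - 1) * q₂) * N := by
  have e1 : z * T₂ = (T₂ * T₂) * T₁ + q₂ • T₁ - ((q₁ - 1) * q₂) • 1 + (T₂ * T₁ * T₂ - (T₂ * T₂) * T₁) := by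
    have h1 := h.quad₂
    unfold Quad at h1
    unfold zOp
    simp only [h1, add_mul, sub_mul, smul_mul_assoc, mul_assoc, mul_add, mul_smul_comm, one_mul,
      mul_one]
    module
  rw [e1, trace_add, trace_sub (T₂ * T₁ * T₂), trace_mul_comm (T₂ * T₁) T₂, ← mul_assoc T₂ T₂ T₁,
    sub_self, add_zero, trace_sub, trace_add, trace_smul, trace_smul, trace_one]
  have h1 := h.quad₂
  unfold Quad at h1
  rw [h1, add_mul, trace_add, smul_mul_assoc, smul_mul_assoc, one_mul, trace_smul, trace_smul,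
    h.tr_D' hn, h.tr₁]
  simp

theorem tr_zD (hn : 3 ≤ n) : trace (z * (D)) = Q * N := by
  have h1 := h.z_mul_pow 0
  simp only [zero_add, pow_one, pow_zero] at h1
  rw [h1, trace_add, h.trD 2 (by omega) (by omega), trace_smul, trace_one]
  simp

theorem tr_zD' (hn : 3 ≤ n) : trace (z * (D')) = Q * N := by
  have h1 := D'_sq h.quad₁ h.quad₂
  have h2 : z * (D') = (D') ^ 2 + (Q) • 1 := by
    rw [pow_two, h1]; abel
  rw [h2, trace_add, h.trD' (by omega) (by omega), trace_smul, trace_one]
  simp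

theorem tr_zz (hn : 3 ≤ n) : trace (z * z) =
    N * (2 * Q + ((q₁ - 1) * (q₂ - 1)) ^ 2 + (q₂ - 1) ^ 2 * q₁ + (q₁ - 1) ^ 2 * q₂) := by
  have e : z * z = z * (D) + z * (D') - (q₂ - 1) • (z * T₁) - (q₁ - 1) • (z * T₂) +
      ((q₁ - 1) * (q₂ - 1)) • z := by
    conv_lhs => rw [show z * z = z * (T₁ * T₂ + T₂ * T₁ - (q₂ - 1) • T₁ - (q₁ - 1) • T₂ +
      ((q₁ - 1) * (q₂ - 1)) • 1) from rfl]
    simp only [mul_add, mul_sub, mul_smul_comm, mul_one]
  rw [e]
  simp only [trace_add, trace_sub, trace_smul, h.tr_zD hn, h.tr_zD' hn, h.tr_zT₁ (by omega),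
    h.tr_zT₂ (by omega), h.tr_z (by omega), smul_eq_mul]
  ring

theorem tr_L (hn : 3 ≤ n) : trace (L) = 2 * Q * N := by
  have := L_mul (T₁ := T₁) (T₂ := T₂) (q₁ := q₁) (q₂ := q₂) (1 : Matrix Ω Ω ℝ)
  rw [mul_one] at this
  rw [this]
  simp only [mul_one, trace_add, trace_sub, trace_smul, h.tr_zz hn, h.tr_z (by omega), trace_one,
    smul_eq_mul]
  ring

theorem tr_L_D (hn : 4 ≤ n) : trace (L * (D)) = 0 := by
  rw [L_mul]
  have h1 := h.z_mul_pow 0
  simp only [zero_add, pow_one, pow_zero] at h1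
  have h2 := h.z_mul_pow 1
  simp only [pow_one] at h2
  have e : z * (z * (D)) = (D) ^ 3 + (Q) • (D) + (Q) • z := by
    rw [h1, mul_add, mul_smul_comm, mul_one, h2]
  rw [e, h1]
  simp only [trace_add, trace_sub, trace_smul, h.tr_D (by omega), h.trD 2 (by omega) (by omega),
    h.trD 3 (by omega) (by omega), h.tr_z (by omega), trace_one, smul_eq_mul]
  ring

theorem tr_L_pow (k : ℕ) (hk : k + 4 < n) :
    trace (L * (D) ^ (k + 2)) = -(Q ^ 2 * trace ((D) ^ k)) := by
  rw [L_mul]
  have h1 := h.z_mul_pow (k + 1)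
  have h2 := h.z_mul_pow (k + 2)
  have h3 := h.z_mul_pow k
  have e : z * (z * (D) ^ (k + 2)) = (D) ^ (k + 4) + (2 * Q) • (D) ^ (k + 2) + (Q ^ 2) • (D) ^ k := by
    rw [show k + 2 = (k + 1) + 1 from rfl, h1, mul_add, mul_smul_comm, h2, h3]
    simp only [smul_add, smul_smul]
    rw [show k + 1 + 1 = k + 2 from rfl]
    module
  rw [e, show k + 2 = (k + 1) + 1 from rfl, h1]
  simp only [trace_add, trace_sub, trace_smul, smul_eq_mul]
  rw [show k + 1 + 2 = k + 3 from rfl, show k + 1 + 1 = k + 2 from rfl]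
  rw [h.trD (k + 2) (by omega) (by omega), h.trD (k + 3) (by omega) (by omega),
    h.trD (k + 1) (by omega) (by omega), h.trD (k + 4) (by omega) (by omega)]
  ring

/-- the symmetric trick. -/
theorem tr_sym {G : Matrix Ω Ω ℝ} (hG : Gᵀ = G) (hG₁ : G * T₁ = T₁ * G) (hG₂ : G * T₂ = T₂ * G) :
    trace (L * G * z) = 2 * trace (L * G * (D)) := by
  set c : Matrix Ω Ω ℝ := D - D' with hc
  set e : Matrix Ω Ω ℝ := z - D - D' with he
  have hL : L = -(c * c) := ell_eq h.quad₁ h.quad₂
  have hce : c * e = -(e * c) := anticomm h.quad₁ h.quad₂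
  have hGD : G * (D) = (D) * G := by
    rw [← mul_assoc, hG₁, mul_assoc, hG₂, mul_assoc]
  have hGD' : G * (D') = (D') * G := by
    rw [← mul_assoc, hG₂, mul_assoc, hG₁, mul_assoc]
  have hGc : G * c = c * G := by
    rw [hc, mul_sub, sub_mul, hGD, hGD']
  have hct : cᵀ = -c := by
    rw [hc, transpose_sub, h.transpose_D, h.transpose_D']
    abel
  have h1 : trace (c * c * G * e) = 0 := by
    have e1 : trace (c * c * G * e) = -trace (c * c * G * e) := by
      calc trace (c * c * G * e) = trace (c * G * (c * e)) := by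
            congr 1
            calc c * c * G * e = c * (c * G) * e := by simp only [mul_assoc]
              _ = c * (G * c) * e := by rw [hGc]
              _ = c * G * (c * e) := by simp only [mul_assoc]
        _ = -trace (c * G * (e * c)) := by rw [hce, mul_neg, trace_neg]
        _ = -trace (c * (c * G * e)) := by
            rw [show c * G * (e * c) = (c * G * e) * c by simp only [mul_assoc], trace_mul_comm]
        _ = -trace (c * c * G * e) := by simp only [mul_assoc]
    linarith
  have h2 : trace (c * c * G * c) = 0 := by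
    have e1 : trace (c * c * G * c) = -trace (c * c * G * c) := by
      calc trace (c * c * G * c) = trace ((c * c * G * c)ᵀ) := (trace_transpose _).symm
        _ = trace (-(c * G * c * c)) := by
            congr 1
            simp only [transpose_mul, hct, hG]
            noncomm_ring
        _ = -trace (c * c * G * c) := by
            rw [trace_neg, show c * G * c * c = c * (c * G) * c by
              rw [show c * G * c * c = c * (G * c) * c by simp only [mul_assoc], hGc]]
            simp only [mul_assoc]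
    linarith
  have h3 : z = e + c + 2 • (D') := by
    rw [he, hc]; abel
  have h4 : z - 2 • (D) = e - c := by
    rw [he, hc]; abel
  have h5 : trace (c * c * G * (z - 2 • (D))) = 0 := by
    rw [h4, mul_sub, trace_sub, h1, h2, sub_zero]
  rw [mul_sub, trace_sub, mul_smul_comm, trace_smul, sub_eq_zero] at h5
  rw [hL]
  simp only [neg_mul, trace_neg]
  rw [h5]
  simp

/-- traces of polynomials in `z` times `L`, in terms of powers of `D`. -/
theorem tr_L_Ch (k : ℕ) : trace (L * aeval z (Ch Q k)) = 2 * trace (L * (D) ^ k) := by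
  have hsymm : ∀ p : ℝ[X], (aeval z p)ᵀ = aeval z p := by
    intro p
    induction p using Polynomial.induction_on' with
    | add p q hp hq => rw [map_add, transpose_add, hp, hq]
    | monomial k a =>
      rw [aeval_monomial, Algebra.algebraMap_eq_smul_one, smul_mul_assoc, one_mul, transpose_smul,
        transpose_pow, h.transpose_z]
  have hsym' : ∀ p : ℝ[X], trace (L * aeval z p * z) = 2 * trace (L * aeval z p * (D)) := fun p =>
    h.tr_sym (hsymm p) (aeval_comm h.comm₁ p) (aeval_comm h.comm₂ p)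
  cases k with
  | zero =>
    have : aeval z (2 : ℝ[X]) = 2 • (1 : Matrix Ω Ω ℝ) := by
      rw [show (2 : ℝ[X]) = 2 • (1 : ℝ[X]) by simp, map_nsmul, map_one]
    simp only [Ch_zero, this, pow_zero, mul_smul_comm, mul_one, trace_smul]
    first | done | simp
  | succ k =>
    rw [Ch_eq, h.pow_eq k]
    simp only [map_sub, map_mul, aeval_X, aeval_C, Algebra.algebraMap_eq_smul_one, smul_mul_assoc,
      one_mul, mul_sub, mul_smul_comm, trace_sub, trace_smul, smul_eq_mul]
    have hc : aeval z (W Q (k + 1)) * z = z * aeval z (W Q (k + 1)) := aeval_comm rfl _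
    have e1 := hsym' (W Q (k + 1))
    rw [mul_assoc, hc, ← mul_assoc] at e1
    rw [← mul_assoc L (z) _, ← mul_assoc L (aeval z (W (Q) (k + 1))) (D)]
    have e2 : trace (L * z * aeval z (W (Q) (k + 1))) =
        2 * trace (L * aeval z (W (Q) (k + 1)) * (D)) := by
      rw [← e1]
    rw [e2]
    ring

end Hyp

end Setup

end Cfsg.Agent.Lib.FeitHigman.Trace
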