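import Mathlib
import Cfsg.Agent.Lib.FeitHigman.Trace

set_option autoImplicit false
set_option linter.unusedSimpArgs false

/-! The spectrum of the central element `z` and the multiplicities of its eigenvalues. -/

namespace Cfsg.Agent.Lib.FeitHigman.Spectral

open Polynomial Matrix Real Cfsg.Agent.Lib.FeitHigman.Hecke Cfsg.Agent.Lib.FeitHigman.Cheb
  Cfsg.Agent.Lib.FeitHigman.Trace

variable {Ω : Type*} [Fintype Ω] [DecidableEq Ω]

theorem trace_pow_eq {A : Matrix Ω Ω ℝ} (hA : A.IsHermitian) (k : ℕ) :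
    trace (A ^ k) = ∑ i, hA.eigenvalues i ^ k := by
  conv_lhs => rw [hA.spectral_theorem]
  rw [← map_pow, Unitary.conjStarAlgAut_apply, trace_mul_cycle, diagonal_pow, ]
  have : star (hA.eigenvectorUnitary : Matrix Ω Ω ℝ) * (hA.eigenvectorUnitary : Matrix Ω Ω ℝ) = 1 :=
    Unitary.coe_star_mul_self hA.eigenvectorUnitary
  rw [this, one_mul, trace_diagonal]
  simp

theorem trace_aeval {A : Matrix Ω Ω ℝ} (hA : A.IsHermitian) (p : ℝ[X]) :
    trace (aeval A p) = ∑ i, p.eval (hA.eigenvalues i) := by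
  induction p using Polynomial.induction_on' with
  | add p q hp hq =>
    simp only [map_add, trace_add, hp, hq, eval_add, Finset.sum_add_distrib]
  | monomial k a =>
    rw [aeval_monomial, Algebra.algebraMap_eq_smul_one, smul_mul_assoc, one_mul, trace_smul,
      trace_pow_eq hA]
    simp [Finset.mul_sum]

theorem aeval_mulVec {A : Matrix Ω Ω ℝ} {v : Ω → ℝ} {l : ℝ} (hv : A *ᵥ v = l • v) (p : ℝ[X]) :
    aeval A p *ᵥ v = p.eval l • v := by
  have hpow : ∀ k : ℕ, A ^ k *ᵥ v = l ^ k • v := by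
    intro k
    induction k with
    | zero => simp
    | succ k ih =>
      rw [pow_succ, ← mulVec_mulVec, hv, mulVec_smul, ih, smul_smul, pow_succ, mul_comm]
  induction p using Polynomial.induction_on' with
  | add p q hp hq =>
    rw [map_add, add_mulVec, hp, hq, eval_add, add_smul]
  | monomial k a =>
    rw [aeval_monomial, Algebra.algebraMap_eq_smul_one, smul_mul_assoc, one_mul, smul_mulVec,
      hpow, smul_smul]
    simp

section

variable {T₁ T₂ : Matrix Ω Ω ℝ} {q₁ q₂ : ℝ} {n : ℕ}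

local notation "z" => zOp T₁ T₂ q₁ q₂
local notation "D" => T₁ * T₂
local notation "D'" => T₂ * T₁
local notation "Q" => q₁ * q₂
local notation "N" => ((Fintype.card Ω : ℕ) : ℝ)
local notation "L" => LOp T₁ T₂ q₁ q₂

/-- the function `(Q + 1 - x)(S + x)` -/
def ell (q₁ q₂ x : ℝ) : ℝ := (q₁ * q₂ + 1 - x) * (q₁ + q₂ + x)

/-- the polynomial `(Q + 1 - X)(S + X)` -/
noncomputable def ellP (q₁ q₂ : ℝ) : ℝ[X] := (C (q₁ * q₂ + 1) - X) * (C (q₁ + q₂) + X)

@[simp] theorem eval_ellP (x : ℝ) : (ellP q₁ q₂).eval x = ell q₁ q₂ x := by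
  simp [ellP, ell]

theorem aeval_ellP : aeval z (ellP q₁ q₂) = L := by
  have e1 : aeval z (C (q₁ * q₂ + 1) - X : ℝ[X]) = algebraMap ℝ _ (q₁ * q₂ + 1) - z := by
    rw [map_sub, aeval_C, aeval_X]
  have e2 : aeval z (C (q₁ + q₂) + X : ℝ[X]) = algebraMap ℝ _ (q₁ + q₂) + z := by
    rw [_root_.map_add (aeval z) (C (q₁ + q₂)) X, aeval_C, aeval_X]
  rw [ellP, map_mul, e1, e2]
  unfold LOp
  simp only [Algebra.algebraMap_eq_smul_one]

namespace Hyp

end Hyp

variable (h : Hyp T₁ T₂ q₁ q₂ n)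
include h

theorem isHermitian : (z).IsHermitian := by
  unfold Matrix.IsHermitian
  rw [conjTranspose_eq_transpose_of_trivial]
  exact h.transpose_z

theorem sum_ell_Ch (hz : (z).IsHermitian) (k : ℕ) :
    ∑ i, ell q₁ q₂ (hz.eigenvalues i) * (Ch Q k).eval (hz.eigenvalues i) =
      2 * trace (L * (D) ^ k) := by
  rw [← h.tr_L_Ch k, ← aeval_ellP, ← map_mul, trace_aeval hz]
  simp

/-- `D^n = X * X`, where `X` is the longest word. -/
theorem pow_n_eq : (D) ^ n = alt T₁ T₂ n * alt T₁ T₂ n := by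
  rw [← alt_two_mul, two_mul, alt_add]
  have := h.braid
  split_ifs with he
  · rfl
  · rw [this]

theorem pow_n_eq' : (D') ^ n = alt T₁ T₂ n * alt T₁ T₂ n := by
  rw [← alt_two_mul, two_mul, alt_add]
  have := h.braid
  split_ifs with he
  · rw [this]
  · rw [this]

theorem transpose_X : (alt T₁ T₂ n)ᵀ = alt T₁ T₂ n := by
  rw [alt_transpose h.sym₁ h.sym₂]
  split_ifs with he
  · exact h.braid.symm
  · rfl

theorem W_mul_c (hn : 1 ≤ n) : aeval z (W Q n) * ((D) - (D')) = 0 := by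
  obtain ⟨m, rfl⟩ : ∃ m, n = m + 1 := ⟨n - 1, by omega⟩
  have h1 := h.pow_eq m
  have h2 := h.pow_eq' m
  rw [(pow_n_eq h)] at h1
  rw [(pow_n_eq' h)] at h2
  rw [mul_sub, sub_eq_zero]
  have := h1.symm.trans h2
  exact sub_left_injective this

theorem L_W_eq_zero (hn : 1 ≤ n) : L * aeval z (W Q n) = 0 := by
  have hL : L = -(((D) - (D')) * ((D) - (D'))) := ell_eq h.quad₁ h.quad₂
  have hc : aeval z (W Q n) * ((D) - (D')) = ((D) - (D')) * aeval z (W Q n) := by
    rw [mul_sub, sub_mul]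
    rw [aeval_comm h.comm_D, aeval_comm h.comm_D']
  rw [hL, neg_mul, mul_assoc, ← hc, (W_mul_c h hn), mul_zero, neg_zero]

/-- Spectrum of `z`, away from the zeros of `ell`. -/
theorem spec {α : ℝ} (hα : 0 < α) (hQ : α ^ 2 = Q) (hn : 2 ≤ n) (hz : (z).IsHermitian) (i : Ω)
    (hi : ell q₁ q₂ (hz.eigenvalues i) ≠ 0) :
    ∃ j : ℕ, 0 < 2 * j ∧ 2 * j < n ∧ hz.eigenvalues i = 2 * α * cos (2 * π * j / n) := by
  set l := hz.eigenvalues i with hl
  set v : Ω → ℝ := ⇑(hz.eigenvectorBasis i) with hv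
  have hzv : (z) *ᵥ v = l • v := hz.mulVec_eigenvectorBasis i
  have hv0 : v ≠ 0 := by
    intro h0
    apply hz.eigenvectorBasis.orthonormal.ne_zero i
    ext j
    exact congrFun h0 j
  have hvv : 0 < v ⬝ᵥ v := by
    have : v ⬝ᵥ v = ∑ j, v j * v j := rfl
    rw [this]
    obtain ⟨j, hj⟩ := Function.ne_iff.1 hv0
    refine Finset.sum_pos' (fun j _ => mul_self_nonneg _) ⟨j, Finset.mem_univ _, ?_⟩
    exact mul_self_pos.2 hj
  have hW0 : (W Q n).eval l = 0 := by
    have h1 := congrArg (fun M => M *ᵥ v) (L_W_eq_zero h (by omega))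
    simp only [zero_mulVec] at h1
    rw [← aeval_ellP, ← map_mul, aeval_mulVec hzv, eval_mul, eval_ellP] at h1
    rcases smul_eq_zero.1 h1 with h2 | h2
    · rcases mul_eq_zero.1 h2 with h3 | h3
      · exact absurd h3 hi
      · exact h3
    · exact absurd h2 hv0
  have hWn : aeval z (W Q n) *ᵥ v = 0 := by
    rw [aeval_mulVec hzv, hW0, zero_smul]
  have hDn : (D) ^ n *ᵥ v = (-(Q * (W Q (n - 1)).eval l)) • v := by
    obtain ⟨m, rfl⟩ : ∃ m, n = m + 1 := ⟨n - 1, by omega⟩
    rw [h.pow_eq m, sub_mulVec, aeval_comm h.comm_D, ← mulVec_mulVec, hWn, mulVec_zero, zero_sub,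
      smul_mulVec, Nat.add_sub_cancel, aeval_mulVec hzv, smul_smul, neg_smul]
  have hnonneg : 0 ≤ v ⬝ᵥ ((D) ^ n *ᵥ v) := by
    rw [(pow_n_eq h), ← mulVec_mulVec, dotProduct_mulVec, ← mulVec_transpose, (transpose_X h)]
    have : ∀ w : Ω → ℝ, 0 ≤ w ⬝ᵥ w := fun w =>
      Finset.sum_nonneg (fun j _ => mul_self_nonneg _)
    exact this _
  rw [hDn, dotProduct_smul, smul_eq_mul] at hnonneg
  have hQpos : 0 < Q := by
    rw [← hQ]; positivity
  have hW1 : (W Q (n - 1)).eval l ≤ 0 := by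
    by_contra hc
    push Not at hc
    have : 0 < Q * (W Q (n - 1)).eval l * (v ⬝ᵥ v) := by positivity
    nlinarith
  rw [← hQ] at hW0 hW1
  exact spec_real hα hn hW0 hW1

/-- the multiplicity of a real number among the eigenvalues -/
noncomputable def mult {A : Matrix Ω Ω ℝ} (hA : A.IsHermitian) (u : ℝ) : ℕ :=
  (Finset.univ.filter (fun i => hA.eigenvalues i = u)).card

theorem S_zero (hn : 5 ≤ n) (hz : (z).IsHermitian) :
    ∑ i, ell q₁ q₂ (hz.eigenvalues i) * (Ch Q 0).eval (hz.eigenvalues i) = 4 * Q * N := by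
  rw [sum_ell_Ch h hz 0, pow_zero, mul_one, h.tr_L (by omega)]
  ring

theorem S_one (hn : 5 ≤ n) (hz : (z).IsHermitian) :
    ∑ i, ell q₁ q₂ (hz.eigenvalues i) * (Ch Q 1).eval (hz.eigenvalues i) = 0 := by
  rw [sum_ell_Ch h hz 1, pow_one, h.tr_L_D (by omega)]
  ring

theorem S_two (hn : 5 ≤ n) (hz : (z).IsHermitian) :
    ∑ i, ell q₁ q₂ (hz.eigenvalues i) * (Ch Q 2).eval (hz.eigenvalues i) = -(2 * Q ^ 2 * N) := by
  rw [sum_ell_Ch h hz 2, h.tr_L_pow 0 (by omega), pow_zero, trace_one]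
  simp
  ring

theorem S_ge (hz : (z).IsHermitian) {k : ℕ} (hk : 3 ≤ k) (hkn : k + 2 < n) :
    ∑ i, ell q₁ q₂ (hz.eigenvalues i) * (Ch Q k).eval (hz.eigenvalues i) = 0 := by
  obtain ⟨m, rfl⟩ : ∃ m, k = m + 2 := ⟨k - 2, by omega⟩
  rw [sum_ell_Ch h hz, h.tr_L_pow m (by omega), h.trD m (by omega) (by omega)]
  ring

/-- **The multiplicity formula.** -/
theorem mult_formula {α : ℝ} (hα : 0 < α) (hQ : α ^ 2 = Q) (hn : 5 ≤ n) (hz : (z).IsHermitian)
    {j : ℕ} (hj : 0 < 2 * j) (hjn : 2 * j < n) :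
    ((mult hz (2 * α * cos (2 * π * j / n)) : ℕ) : ℝ) * n *
        ell q₁ q₂ (2 * α * cos (2 * π * j / n)) =
      2 * N * (4 * Q - (2 * α * cos (2 * π * j / n)) ^ 2) := by
  set φ := 2 * π * j / n with hφ
  set u := 2 * α * cos φ with hu
  have hn0 : (n : ℝ) ≠ 0 := by
    have : 0 < n := by omega
    positivity
  have hα0 : α ≠ 0 := hα.ne'
  set c : ℕ → ℝ := fun k => cos (k * φ) / α ^ k with hc
  let F : ℝ → ℝ := fun x => ∑ k ∈ Finset.range (n - 2), c k * (Ch Q k).eval x +
    c 1 * (Ch Q 1).eval x + c 2 * (Ch Q 2).eval x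
  -- claim A
  have hA : ∀ j' : ℕ, 0 < 2 * j' → 2 * j' < n →
      F (2 * α * cos (2 * π * j' / n)) = if j = j' then (n : ℝ) else 0 := by
    intro j' hj' hjn'
    set ψ := 2 * π * j' / n with hψ
    have hcos : ∀ k : ℕ, c k * (Ch Q k).eval (2 * α * cos ψ) = cos (k * φ) * (2 * cos (k * ψ)) := by
      intro k
      rw [← hQ, eval_Ch, hc]
      have : α ^ k ≠ 0 := pow_ne_zero _ hα0
      field_simp
    have hg1 : cos (((n - 1 : ℕ) : ℝ) * φ) = cos (1 * φ) := by
      have : ((n - 1 : ℕ) : ℝ) * φ = j * (2 * π) - 1 * φ := by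
        rw [Nat.cast_sub (by omega), hφ]; field_simp; push_cast; ring
      rw [this, cos_nat_mul_two_pi_sub]
    have hg2 : cos (((n - 2 : ℕ) : ℝ) * φ) = cos (2 * φ) := by
      have : ((n - 2 : ℕ) : ℝ) * φ = j * (2 * π) - 2 * φ := by
        rw [Nat.cast_sub (by omega), hφ]; field_simp; push_cast; ring
      rw [this, cos_nat_mul_two_pi_sub]
    have hg1' : cos (((n - 1 : ℕ) : ℝ) * ψ) = cos (1 * ψ) := by
      have : ((n - 1 : ℕ) : ℝ) * ψ = j' * (2 * π) - 1 * ψ := by
        rw [Nat.cast_sub (by omega), hψ]; field_simp; push_cast; ring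
      rw [this, cos_nat_mul_two_pi_sub]
    have hg2' : cos (((n - 2 : ℕ) : ℝ) * ψ) = cos (2 * ψ) := by
      have : ((n - 2 : ℕ) : ℝ) * ψ = j' * (2 * π) - 2 * ψ := by
        rw [Nat.cast_sub (by omega), hψ]; field_simp; push_cast; ring
      rw [this, cos_nat_mul_two_pi_sub]
    have hsum := sum_cos_mul_cos hj hjn hj' hjn'
    rw [← hφ, ← hψ] at hsum
    rw [← hsum]
    have hsplit : Finset.range n = Finset.range (n - 2 + 1 + 1) := by
      congr 1; omega
    rw [hsplit, Finset.sum_range_succ, Finset.sum_range_succ]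
    have e1 : n - 2 + 1 = n - 1 := by omega
    rw [e1]
    simp only [F, hcos]
    rw [hg1, hg2, hg1', hg2']
    simp
    ring
  -- claim B
  have hB : ∑ i, ell q₁ q₂ (hz.eigenvalues i) * F (hz.eigenvalues i) =
      2 * N * (4 * Q - u ^ 2) := by
    have e1 : ∑ i, ell q₁ q₂ (hz.eigenvalues i) * F (hz.eigenvalues i) =
        ∑ k ∈ Finset.range (n - 2),
          c k * ∑ i, ell q₁ q₂ (hz.eigenvalues i) * (Ch Q k).eval (hz.eigenvalues i) +
        c 1 * ∑ i, ell q₁ q₂ (hz.eigenvalues i) * (Ch Q 1).eval (hz.eigenvalues i) +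
        c 2 * ∑ i, ell q₁ q₂ (hz.eigenvalues i) * (Ch Q 2).eval (hz.eigenvalues i) := by
      have e0 : ∀ i, ell q₁ q₂ (hz.eigenvalues i) * F (hz.eigenvalues i) =
          ∑ k ∈ Finset.range (n - 2),
            c k * (ell q₁ q₂ (hz.eigenvalues i) * (Ch Q k).eval (hz.eigenvalues i)) +
          c 1 * (ell q₁ q₂ (hz.eigenvalues i) * (Ch Q 1).eval (hz.eigenvalues i)) +
          c 2 * (ell q₁ q₂ (hz.eigenvalues i) * (Ch Q 2).eval (hz.eigenvalues i)) := by
        intro i
        simp only [F, mul_add, Finset.mul_sum]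
        congr 1
        · congr 1
          · refine Finset.sum_congr rfl fun k _ => ?_
            ring
          · ring
        · ring
      simp only [e0, Finset.sum_add_distrib, Finset.mul_sum]
      rw [Finset.sum_comm]
    have e2 : ∑ k ∈ Finset.range (n - 2),
          c k * ∑ i, ell q₁ q₂ (hz.eigenvalues i) * (Ch Q k).eval (hz.eigenvalues i) =
        c 0 * (4 * Q * N) + c 2 * (-(2 * Q ^ 2 * N)) := by
      have hsub : ({0, 2} : Finset ℕ) ⊆ Finset.range (n - 2) := by
        intro k hk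
        simp only [Finset.mem_insert, Finset.mem_singleton] at hk
        rw [Finset.mem_range]
        omega
      rw [← Finset.sum_subset hsub]
      · rw [Finset.sum_insert (by simp), Finset.sum_singleton, S_zero h hn hz, S_two h hn hz]
      · intro k hk hk'
        simp only [Finset.mem_insert, Finset.mem_singleton, not_or] at hk'
        rw [Finset.mem_range] at hk
        by_cases h1 : k = 1
        · subst h1
          rw [S_one h hn hz, mul_zero]
        · rw [S_ge h hz (by omega) (by omega), mul_zero]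
    rw [e1, e2, S_one h hn hz, S_two h hn hz]
    have hc0 : c 0 = 1 := by simp [hc]
    have hc2 : c 2 = cos (2 * φ) / Q := by
      simp only [hc]
      rw [← hQ]
      norm_num
    have hu2 : (2 * α * cos φ) ^ 2 = 4 * (q₁ * q₂) * cos φ ^ 2 := by
      rw [← hQ]; ring
    have hQ0 : q₁ * q₂ ≠ 0 := by
      rw [← hQ]; exact pow_ne_zero _ hα0
    rw [hc0, hc2, hu, cos_two_mul, hu2]
    generalize q₁ * q₂ = Q' at hQ0
    field_simp
    ring
  -- claim C
  have hC : ∀ i, ell q₁ q₂ (hz.eigenvalues i) * F (hz.eigenvalues i) =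
      if hz.eigenvalues i = u then ell q₁ q₂ u * n else 0 := by
    intro i
    by_cases hi : ell q₁ q₂ (hz.eigenvalues i) = 0
    · rw [hi, zero_mul]
      split_ifs with hiu
      · rw [← hiu, hi, zero_mul]
      · rfl
    · obtain ⟨j', hj', hjn', hl⟩ := spec h hα hQ (by omega) hz i hi
      rw [hl, hA j' hj' hjn']
      by_cases hjj : j = j'
      · subst hjj
        simp [hu, hφ]
      · have hne : 2 * α * cos (2 * π * j' / n) ≠ u := by
          intro he
          apply hjj
          have h1 : cos (2 * π * j' / n) = cos φ := by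
            have := mul_left_cancel₀ (by positivity : 2 * α ≠ 0) he
            exact this
          have hnpos : (0 : ℝ) < n := by
            have : 0 < n := by omega
            exact_mod_cast this
          have hbd : ∀ t : ℕ, 2 * t < n → 2 * π * t / n ∈ Set.Icc 0 π := by
            intro t ht
            constructor
            · positivity
            · rw [div_le_iff₀ hnpos]
              have h2 : (2 * t : ℝ) ≤ n := by exact_mod_cast ht.le
              nlinarith [pi_pos]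
          have h2 := injOn_cos (hbd j' hjn') (hbd j hjn) h1
          have h3 : (j' : ℝ) = j := by
            have hπ : π ≠ 0 := pi_ne_zero
            field_simp at h2
            exact h2
          exact_mod_cast h3.symm
        simp [hjj, hne]
  have hfinal : ∑ i, ell q₁ q₂ (hz.eigenvalues i) * F (hz.eigenvalues i) =
      (mult hz u : ℝ) * (ell q₁ q₂ u * n) := by
    simp only [hC]
    rw [Finset.sum_ite, Finset.sum_const, Finset.sum_const_zero, add_zero, nsmul_eq_mul]
    rfl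
  rw [← hB, hfinal]
  ring

end

end Cfsg.Agent.Lib.FeitHigman.Spectral
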