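import Mathlib
import Cfsg.Agent.Lib.FeitHigman.Spectral
import Cfsg.Agent.Lib.FeitHigman.Galois

set_option autoImplicit false
set_option linter.unusedSimpArgs false

/-! The abstract Feit-Higman theorem. -/

namespace Cfsg.Agent.Lib.FeitHigman.Final

open Polynomial Matrix Real Cfsg.Agent.Lib.FeitHigman.Hecke Cfsg.Agent.Lib.FeitHigman.Cheb
  Cfsg.Agent.Lib.FeitHigman.Trace Cfsg.Agent.Lib.FeitHigman.Spectral
  Cfsg.Agent.Lib.FeitHigman.Galois

variable {Ω : Type*} [Fintype Ω] [DecidableEq Ω]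

theorem mult_eq_rootMultiplicity {A : Matrix Ω Ω ℝ} (hA : A.IsHermitian) (u : ℝ) :
    mult hA u = rootMultiplicity u A.charpoly := by
  rw [← count_roots, hA.roots_charpoly_eq_eigenvalues, Multiset.count_map]
  unfold mult
  rw [Finset.card_def, Finset.filter_val]
  congr 1
  apply Multiset.filter_congr
  intro i _
  simp [eq_comm]

theorem mult_conj {A : Matrix Ω Ω ℝ} (hA : A.IsHermitian) {F : ℚ[X]} (hF0 : F ≠ 0)
    (hF : F.map (algebraMap ℚ ℝ) = A.charpoly) {u u' : ℝ} (hu : IsIntegral ℚ u)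
    (hu' : aeval u' (minpoly ℚ u) = 0) : mult hA u = mult hA u' := by
  rw [mult_eq_rootMultiplicity, mult_eq_rootMultiplicity, ← hF]
  exact conj_mult hu hu' F hF0

theorem exists_eig_of_root {A : Matrix Ω Ω ℝ} (hA : A.IsHermitian) {u : ℝ}
    (hu : A.charpoly.IsRoot u) : ∃ i, hA.eigenvalues i = u := by
  have hne : A.charpoly ≠ 0 := (charpoly_monic A).ne_zero
  have h1 := (rootMultiplicity_pos hne).2 hu
  rw [← mult_eq_rootMultiplicity hA] at h1
  unfold mult at h1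
  obtain ⟨i, hi⟩ := Finset.card_pos.1 h1
  exact ⟨i, (Finset.mem_filter.1 hi).2⟩

theorem root_of_mult_pos {A : Matrix Ω Ω ℝ} (hA : A.IsHermitian) {u : ℝ} (hu : mult hA u ≠ 0) :
    A.charpoly.IsRoot u := by
  rw [mult_eq_rootMultiplicity hA] at hu
  have hne : A.charpoly ≠ 0 := (charpoly_monic A).ne_zero
  exact (rootMultiplicity_pos hne).1 (Nat.pos_of_ne_zero hu)

/-- Two eigenvalues with the same multiplicity satisfy an algebraic relation. -/
theorem key_of_same_mult {q₁ q₂ N u u' m n : ℝ} (hN : N ≠ 0) (hne : u ≠ u')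
    (h1 : m * n * ell q₁ q₂ u = 2 * N * (4 * (q₁ * q₂) - u ^ 2))
    (h2 : m * n * ell q₁ q₂ u' = 2 * N * (4 * (q₁ * q₂) - u' ^ 2)) :
    ((q₁ - 1) * (q₂ - 1)) * (4 * (q₁ * q₂) + u * u') +
      ((q₁ * q₂ + 1) * (q₁ + q₂) - 4 * (q₁ * q₂)) * (u + u') = 0 := by
  have e : (2 * N) * ((u' - u) * (((q₁ - 1) * (q₂ - 1)) * (4 * (q₁ * q₂) + u * u') +
      ((q₁ * q₂ + 1) * (q₁ + q₂) - 4 * (q₁ * q₂)) * (u + u'))) =
      (2 * N * (4 * (q₁ * q₂) - u ^ 2)) * ell q₁ q₂ u' -
        (2 * N * (4 * (q₁ * q₂) - u' ^ 2)) * ell q₁ q₂ u := by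
    unfold ell; ring
  rw [← h1, ← h2] at e
  have e2 : (2 * N) * ((u' - u) * (((q₁ - 1) * (q₂ - 1)) * (4 * (q₁ * q₂) + u * u') +
      ((q₁ * q₂ + 1) * (q₁ + q₂) - 4 * (q₁ * q₂)) * (u + u'))) = 0 := by
    rw [e]; ring
  have h3 : (2 * N) ≠ 0 := by simpa using hN
  have h4 : u' - u ≠ 0 := sub_ne_zero.2 hne.symm
  rcases mul_eq_zero.1 e2 with h | h
  · exact absurd h h3
  · rcases mul_eq_zero.1 h with h | h
    · exact absurd h h4
    · exact h

theorem cos_bd {n j : ℕ} (hj : 0 < 2 * j) (hjn : 2 * j < n) :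
    -1 < cos (2 * π * j / n) ∧ cos (2 * π * j / n) < 1 := by
  have hnpos : (0 : ℝ) < n := by
    have : 0 < n := by omega
    exact_mod_cast this
  have hj0 : (0 : ℝ) < j := by
    have : 0 < j := by omega
    exact_mod_cast this
  have h0 : 0 < 2 * π * j / n := by positivity
  have h1 : 2 * π * j / n < π := by
    rw [div_lt_iff₀ hnpos]
    have h2 : (2 * j : ℝ) < n := by exact_mod_cast hjn
    nlinarith [pi_pos]
  constructor
  · have := cos_lt_cos_of_nonneg_of_le_pi h0.le le_rfl h1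
    rwa [cos_pi] at this
  · have := cos_lt_cos_of_nonneg_of_le_pi le_rfl h1.le h0
    rwa [cos_zero] at this

theorem cos_sum_nonneg {n j' : ℕ} (hev : Even n) (hn : 5 ≤ n)
    (hjn' : 2 * j' < n) : 0 ≤ cos (2 * π * (1 : ℕ) / n) + cos (2 * π * j' / n) := by
  have hnpos : (0 : ℝ) < n := by
    have : 0 < n := by omega
    exact_mod_cast this
  have h2 : 2 * j' + 2 ≤ n := by
    obtain ⟨t, ht⟩ := hev
    omega
  have h3 : (2 * j' + 2 : ℝ) ≤ n := by exact_mod_cast h2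
  have h4 : 2 * π * j' / n ≤ π - 2 * π * (1 : ℕ) / n := by
    rw [div_le_iff₀ hnpos, sub_mul, div_mul_cancel₀ _ hnpos.ne']
    push_cast
    nlinarith [pi_pos]
  have h5 := cos_le_cos_of_nonneg_of_le_pi (x := 2 * π * j' / n) (y := π - 2 * π * (1 : ℕ) / n)
    (by positivity) (by
      have : 0 < 2 * π * (1 : ℕ) / n := by
        positivity
      linarith) h4
  rw [cos_pi_sub] at h5
  linarith

theorem real_even {a b α c₁ c₂ u u' : ℝ} (ha : 2 ≤ a) (hb : 2 ≤ b) (hα : 0 < α)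
    (hQ : α ^ 2 = a * b) (hc₁ : -1 < c₁ ∧ c₁ < 1) (hc₂ : -1 < c₂ ∧ c₂ < 1) (hsum : 0 ≤ c₁ + c₂)
    (hu : u = 2 * α * c₁) (hu' : u' = 2 * α * c₂)
    (hkey : ((a - 1) * (b - 1)) * (4 * (a * b) + u * u') +
      ((a * b + 1) * (a + b) - 4 * (a * b)) * (u + u') = 0) : False := by
  have hprod : 4 * (a * b) + u * u' = 4 * (a * b) * (1 + c₁ * c₂) := by
    rw [hu, hu', ← hQ]; ring
  have hcc : -1 < c₁ * c₂ := by
    have h1 : |c₁ * c₂| < 1 := by
      rw [abs_mul]
      have h3 : |c₁| < 1 := abs_lt.2 hc₁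
      have h4 : |c₂| < 1 := abs_lt.2 hc₂
      have h5 := abs_nonneg c₁
      have h6 := abs_nonneg c₂
      nlinarith
    exact (abs_lt.1 h1).1
  have hκ : 0 < (a - 1) * (b - 1) := by
    apply mul_pos <;> linarith
  have hQpos : 0 < a * b := by positivity
  have hsum' : 0 ≤ u + u' := by
    rw [hu, hu']
    have := mul_nonneg (by positivity : 0 ≤ 2 * α) hsum
    linarith
  have hAS : 0 ≤ (a * b + 1) * (a + b) - 4 * (a * b) := by
    have : (a * b + 1) * (a + b) - 4 * (a * b) = (b - 1) ^ 2 * a + (a - 1) ^ 2 * b := by ring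
    rw [this]
    positivity
  have h1 : 0 < (a - 1) * (b - 1) * (4 * (a * b) + u * u') := by
    rw [hprod]
    apply mul_pos hκ
    apply mul_pos (by positivity)
    linarith
  have h2 := mul_nonneg hAS hsum'
  linarith

theorem real_odd {a α c₁ c₂ u u' : ℝ} (ha : 2 ≤ a) (hα : 0 < α)
    (hQ : α ^ 2 = a * a) (hc₁ : -1 < c₁ ∧ c₁ < 1) (hc₂ : -1 < c₂ ∧ c₂ < 1)
    (hu : u = 2 * α * c₁) (hu' : u' = 2 * α * c₂)
    (hkey : ((a - 1) * (a - 1)) * (4 * (a * a) + u * u') +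
      ((a * a + 1) * (a + a) - 4 * (a * a)) * (u + u') = 0) : False := by
  have hαa : α = a := by
    have h1 : α ^ 2 = a ^ 2 := by rw [hQ]; ring
    have h2 : 0 ≤ a := by linarith
    exact (pow_left_inj₀ hα.le h2 (by norm_num)).1 h1
  have e : ((a - 1) * (a - 1)) * (4 * (a * a) + u * u') +
      ((a * a + 1) * (a + a) - 4 * (a * a)) * (u + u') =
      (a - 1) ^ 2 * ((2 * a + u) * (2 * a + u')) := by ring
  rw [e] at hkey
  have ha0 : 0 < a := by linarith
  have h1 : 0 < 2 * a + u := by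
    rw [hu, hαa]
    have : 0 < 2 * a * (1 + c₁) := by
      apply mul_pos (by positivity)
      linarith [hc₁.1]
    linarith
  have h2 : 0 < 2 * a + u' := by
    rw [hu', hαa]
    have : 0 < 2 * a * (1 + c₂) := by
      apply mul_pos (by positivity)
      linarith [hc₂.1]
    linarith
  have h3 : 0 < (a - 1) ^ 2 * ((2 * a + u) * (2 * a + u')) := by
    apply mul_pos
    · have : a - 1 ≠ 0 := by linarith
      positivity
    · exact mul_pos h1 h2
  linarith

section Main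

variable [Nonempty Ω] {T₁ T₂ : Matrix Ω Ω ℝ} {a b n : ℕ}

/-- The key step: `2 α cos (2 π / n)` is rational. -/
theorem u_one_rational (h : Hyp T₁ T₂ (a : ℝ) (b : ℝ) n)
    (ha : 2 ≤ a) (hb : 2 ≤ b) (hn : 5 ≤ n) (hodd : ¬ Even n → a = b)
    {F : ℚ[X]} (hF0 : F ≠ 0) (hF : F.map (algebraMap ℚ ℝ) = (zOp T₁ T₂ (a : ℝ) (b : ℝ)).charpoly)
    {α : ℝ} (hα : 0 < α) (hQ : α ^ 2 = (a : ℝ) * (b : ℝ))
    (hz : (zOp T₁ T₂ (a : ℝ) (b : ℝ)).IsHermitian) :
    2 * α * cos (2 * π * (1 : ℕ) / n) ∈ (algebraMap ℚ ℝ).range := by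
  by_contra hnot
  have hf1 := mult_formula h hα hQ hn hz (j := 1) (by norm_num) (by omega)
  have hbd1 := cos_bd (n := n) (j := 1) (by norm_num) (by omega)
  set c₁ := cos (2 * π * (1 : ℕ) / n) with hc₁
  set u := 2 * α * c₁ with hu
  have ha' : (2 : ℝ) ≤ a := by exact_mod_cast ha
  have hb' : (2 : ℝ) ≤ b := by exact_mod_cast hb
  have hN : ((Fintype.card Ω : ℕ) : ℝ) ≠ 0 := by
    have : Fintype.card Ω ≠ 0 := Fintype.card_ne_zero
    exact_mod_cast this
  have hNpos : (0 : ℝ) < ((Fintype.card Ω : ℕ) : ℝ) := by positivity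
  have hαsq : α * α = (a : ℝ) * b := by rw [← hQ]; ring
  have hQpos : 0 < (a : ℝ) * b := by positivity
  have hu2 : u ^ 2 = 4 * ((a : ℝ) * b) * c₁ ^ 2 := by
    rw [hu, ← hQ]; ring
  have hpos1 : 0 < 4 * ((a : ℝ) * b) - u ^ 2 := by
    rw [hu2]
    have h1 : c₁ ^ 2 < 1 := by
      rw [sq_lt_one_iff_abs_lt_one, abs_lt]; exact hbd1
    nlinarith
  have hm1 : mult hz u ≠ 0 := by
    intro h0
    rw [h0] at hf1
    simp only [Nat.cast_zero, zero_mul] at hf1
    have : 0 < 2 * ((Fintype.card Ω : ℕ) : ℝ) * (4 * ((a : ℝ) * b) - u ^ 2) := by positivity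
    linarith
  have hroot : (zOp T₁ T₂ (a : ℝ) (b : ℝ)).charpoly.IsRoot u := root_of_mult_pos hz hm1
  have hFu : aeval u F = 0 := by
    rw [IsRoot, ← hF, eval_map_algebraMap] at hroot
    exact hroot
  have hint : IsIntegral ℚ u := (IsAlgebraic.isIntegral ⟨F, hF0, hFu⟩)
  have hsplit : (F.map (algebraMap ℚ ℝ)).Splits := by
    rw [hF]; exact hz.splits_charpoly
  obtain ⟨u', hne, hu'⟩ := exists_other_root hint hnot hF0 hFu hsplit
  -- `u'` is an eigenvalue
  have hFu' : aeval u' F = 0 := by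
    obtain ⟨G, rfl⟩ := minpoly.dvd ℚ u hFu
    rw [map_mul, hu', zero_mul]
  obtain ⟨i, hi⟩ := exists_eig_of_root hz (u := u') (by
    rw [IsRoot, ← hF, eval_map_algebraMap]; exact hFu')
  -- `u'` is irrational
  have hdeg : 2 ≤ (minpoly ℚ u).natDegree := (minpoly.two_le_natDegree_iff hint).2 hnot
  have hirr : ∀ r : ℚ, u' ≠ algebraMap ℚ ℝ r := by
    intro r hr
    rw [hr, aeval_algebraMap_apply] at hu'
    have h1 : (minpoly ℚ u).IsRoot r := by
      have : algebraMap ℚ ℝ (aeval r (minpoly ℚ u)) = 0 := hu'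
      have h2 : aeval r (minpoly ℚ u) = 0 := by
        simpa using this
      simpa [IsRoot, aeval_def] using h2
    have h2 := degree_eq_one_of_irreducible_of_root (minpoly.irreducible hint) h1
    have h3 : (minpoly ℚ u).natDegree = 1 := by
      rw [natDegree_eq_of_degree_eq_some h2]; rfl
    omega
  have hell : ell (a : ℝ) (b : ℝ) u' ≠ 0 := by
    intro h0
    unfold ell at h0
    rcases mul_eq_zero.1 h0 with h1 | h1
    · apply hirr (((a : ℚ) * b + 1))
      simp only [eq_ratCast]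
      push_cast
      linarith
    · apply hirr (-((a : ℚ) + b))
      simp only [eq_ratCast]
      push_cast
      linarith
  obtain ⟨j', hj', hjn', hl⟩ := spec h hα hQ (by omega) hz i (by rw [hi]; exact hell)
  rw [hi] at hl
  have hbd2 := cos_bd hj' hjn'
  have hf2 := mult_formula h hα hQ hn hz hj' hjn'
  rw [← hl, ← mult_conj hz hF0 hF hint hu'] at hf2
  have hkey := key_of_same_mult (n := (n : ℝ)) hN hne.symm hf1 hf2
  by_cases hev : Even n
  · exact real_even ha' hb' hα hQ hbd1 hbd2 (cos_sum_nonneg hev hn hjn') hu hl hkey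
  · have hab := hodd hev
    subst hab
    exact real_odd ha' hα hQ hbd1 hbd2 hu hl hkey

end Main

/-- The Niven step: `n` is `6`, `8` or `12`. -/
theorem niven_step {n : ℕ} (hn : 5 ≤ n) {Q α : ℝ} {q : ℚ} (hq : Q = q) (hQ : 0 < Q) (hα : α ^ 2 = Q)
    (hr : 2 * α * cos (2 * π * (1 : ℕ) / n) ∈ (algebraMap ℚ ℝ).range) :
    n = 6 ∨ n = 8 ∨ n = 12 := by
  have hnpos : (0 : ℝ) < n := by
    have : 0 < n := by omega
    exact_mod_cast this
  have hn5 : (5 : ℝ) ≤ n := by exact_mod_cast hn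
  set θ := 4 * π / n with hθ
  have hθ0 : 0 < θ := by positivity
  have hθπ : θ < π := by
    rw [hθ, div_lt_iff₀ hnpos]
    nlinarith [pi_pos]
  obtain ⟨r, hr⟩ := hr
  have hc : cos θ = r ^ 2 / (2 * Q) - 1 := by
    have e1 : θ = 2 * (2 * π * (1 : ℕ) / n) := by
      rw [hθ]; push_cast; ring
    rw [e1, cos_two_mul]
    have h2 : (r : ℝ) = 2 * α * cos (2 * π * (1 : ℕ) / n) := by
      rw [← hr]; simp
    rw [h2, mul_pow, mul_pow, hα]
    field_simp
  have hniv : cos θ ∈ ({-1, -1 / 2, 0, 1 / 2, 1} : Set ℝ) := by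
    apply niven
    · refine ⟨4 / n, ?_⟩
      rw [hθ]; push_cast; ring
    · refine ⟨r ^ 2 / (2 * q) - 1, ?_⟩
      rw [hc, hq]; push_cast; ring
  have hIcc : θ ∈ Set.Icc 0 π := ⟨hθ0.le, hθπ.le⟩
  simp only [Set.mem_insert_iff, Set.mem_singleton_iff] at hniv
  rcases hniv with h | h | h | h | h
  · exfalso
    have := cos_lt_cos_of_nonneg_of_le_pi hθ0.le le_rfl hθπ
    rw [cos_pi, h] at this
    exact lt_irrefl _ this
  · left
    have h1 : cos (π - π / 3) = -1 / 2 := by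
      rw [cos_pi_sub, cos_pi_div_three]; ring
    have h2 := injOn_cos hIcc (⟨by linarith [pi_pos], by linarith [pi_pos]⟩ : π - π / 3 ∈ Set.Icc 0 π)
      (h.trans h1.symm)
    rw [hθ, div_eq_iff hnpos.ne'] at h2
    have h3 : (n : ℝ) = 6 := by
      have hπ := pi_ne_zero
      have : π * (n - 6) = 0 := by
        linarith
      rcases mul_eq_zero.1 this with h4 | h4
      · exact absurd h4 hπ
      · linarith
    exact_mod_cast h3
  · right; left
    have h2 := injOn_cos hIcc (⟨by linarith [pi_pos], by linarith [pi_pos]⟩ : π / 2 ∈ Set.Icc 0 π)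
      (h.trans cos_pi_div_two.symm)
    rw [hθ, div_eq_iff hnpos.ne'] at h2
    have h3 : (n : ℝ) = 8 := by
      have hπ := pi_ne_zero
      have : π * (n - 8) = 0 := by
        linarith
      rcases mul_eq_zero.1 this with h4 | h4
      · exact absurd h4 hπ
      · linarith
    exact_mod_cast h3
  · right; right
    have h2 := injOn_cos hIcc (⟨by linarith [pi_pos], by linarith [pi_pos]⟩ : π / 3 ∈ Set.Icc 0 π)
      (h.trans cos_pi_div_three.symm)
    rw [hθ, div_eq_iff hnpos.ne'] at h2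
    have h3 : (n : ℝ) = 12 := by
      have hπ := pi_ne_zero
      have : π * (n - 12) = 0 := by
        linarith
      rcases mul_eq_zero.1 this with h4 | h4
      · exact absurd h4 hπ
      · linarith
    exact_mod_cast h3
  · exfalso
    have := cos_lt_cos_of_nonneg_of_le_pi le_rfl hθπ.le hθ0
    rw [cos_zero, h] at this
    exact lt_irrefl _ this

section Twelve

variable [Nonempty Ω] {T₁ T₂ : Matrix Ω Ω ℝ} {a b : ℕ}

/-- `n = 12` is impossible. -/
theorem not_twelve (h : Hyp T₁ T₂ (a : ℝ) (b : ℝ) 12)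
    (ha : 2 ≤ a) (hb : 2 ≤ b)
    {F : ℚ[X]} (hF0 : F ≠ 0) (hF : F.map (algebraMap ℚ ℝ) = (zOp T₁ T₂ (a : ℝ) (b : ℝ)).charpoly)
    {α : ℝ} (hα : 0 < α) (hQ : α ^ 2 = (a : ℝ) * (b : ℝ))
    (hz : (zOp T₁ T₂ (a : ℝ) (b : ℝ)).IsHermitian)
    (hr : 2 * α * cos (2 * π * (1 : ℕ) / (12 : ℕ)) ∈ (algebraMap ℚ ℝ).range) : False := by
  have ha' : (2 : ℝ) ≤ a := by exact_mod_cast ha
  have hb' : (2 : ℝ) ≤ b := by exact_mod_cast hb
  have hN : ((Fintype.card Ω : ℕ) : ℝ) ≠ 0 := by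
    have : Fintype.card Ω ≠ 0 := Fintype.card_ne_zero
    exact_mod_cast this
  -- `α` is irrational
  have hαirr : α ∉ (algebraMap ℚ ℝ).range := by
    rintro ⟨s, hs⟩
    obtain ⟨r, hr⟩ := hr
    have e1 : 2 * π * ((1 : ℕ) : ℝ) / ((12 : ℕ) : ℝ) = π / 6 := by
      push_cast; ring
    rw [e1, cos_pi_div_six] at hr
    have hs' : α = (s : ℝ) := by rw [← hs]; simp
    have hr' : (r : ℝ) = α * √3 := by
      have : (r : ℝ) = 2 * α * (√3 / 2) := by rw [← hr]; simp
      rw [this]; ring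
    have hirr : Irrational (√3) := by
      have := Nat.Prime.irrational_sqrt (p := 3) (by norm_num)
      simpa using this
    apply hirr
    refine ⟨r / s, ?_⟩
    have hs0 : (s : ℝ) ≠ 0 := by rw [← hs']; exact hα.ne'
    push_cast
    rw [hr', hs']
    field_simp
  -- minimal polynomial of `α`
  set P : ℚ[X] := X ^ 2 - C ((a : ℚ) * b) with hP
  have hPmon : P.Monic := monic_X_pow_sub_C _ (by norm_num)
  have hPα : aeval α P = 0 := by
    rw [hP]
    simp [hQ]
  have hPα' : aeval (-α) P = 0 := by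
    rw [hP]
    simp [hQ]
  have hint : IsIntegral ℚ α := ⟨P, hPmon, by
    simpa [aeval_def] using hPα⟩
  have hdvd : minpoly ℚ α ∣ P := minpoly.dvd ℚ α hPα
  have hdeg : 2 ≤ (minpoly ℚ α).natDegree := (minpoly.two_le_natDegree_iff hint).2 hαirr
  have hPdeg : P.natDegree = 2 := natDegree_X_pow_sub_C
  have hPeq : P = minpoly ℚ α :=
    eq_of_monic_of_dvd_of_natDegree_le (minpoly.monic hint) hPmon hdvd (by omega)
  have hconj : mult hz α = mult hz (-α) := by
    apply mult_conj hz hF0 hF hint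
    rw [← hPeq]; exact hPα'
  have hf2 := mult_formula h hα hQ (by norm_num) hz (j := 2) (by norm_num) (by norm_num)
  have hf4 := mult_formula h hα hQ (by norm_num) hz (j := 4) (by norm_num) (by norm_num)
  have e2 : 2 * α * cos (2 * π * ((2 : ℕ) : ℝ) / ((12 : ℕ) : ℝ)) = α := by
    have : 2 * π * ((2 : ℕ) : ℝ) / ((12 : ℕ) : ℝ) = π / 3 := by
      push_cast; ring
    rw [this, cos_pi_div_three]; ring
  have e4 : 2 * α * cos (2 * π * ((4 : ℕ) : ℝ) / ((12 : ℕ) : ℝ)) = -α := by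
    have : 2 * π * ((4 : ℕ) : ℝ) / ((12 : ℕ) : ℝ) = π - π / 3 := by
      push_cast; ring
    rw [this, cos_pi_sub, cos_pi_div_three]; ring
  rw [e2] at hf2
  rw [e4, ← hconj] at hf4
  have hne : α ≠ -α := by
    intro h0
    linarith
  have hkey := key_of_same_mult (n := ((12 : ℕ) : ℝ)) hN hne hf2 hf4
  have e : ((a : ℝ) - 1) * ((b : ℝ) - 1) * (4 * ((a : ℝ) * b) + α * -α) +
      (((a : ℝ) * b + 1) * ((a : ℝ) + b) - 4 * ((a : ℝ) * b)) * (α + -α) =
      ((a : ℝ) - 1) * ((b : ℝ) - 1) * (3 * ((a : ℝ) * b)) := by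
    have : α * -α = -((a : ℝ) * b) := by rw [← hQ]; ring
    rw [this]; ring
  rw [e] at hkey
  have h1 : 0 < ((a : ℝ) - 1) * ((b : ℝ) - 1) * (3 * ((a : ℝ) * b)) := by
    apply mul_pos (mul_pos (by linarith) (by linarith))
    positivity
  linarith

end Twelve

/-- **The abstract Feit-Higman theorem.** -/
theorem main [Nonempty Ω] {T₁ T₂ : Matrix Ω Ω ℝ} {a b n : ℕ}
    (h : Hyp T₁ T₂ (a : ℝ) (b : ℝ) n)
    (ha : 2 ≤ a) (hb : 2 ≤ b) (hn : 5 ≤ n) (hodd : ¬ Even n → a = b)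
    {F : ℚ[X]} (hF0 : F ≠ 0) (hF : F.map (algebraMap ℚ ℝ) = (zOp T₁ T₂ (a : ℝ) (b : ℝ)).charpoly) :
    n = 6 ∨ n = 8 := by
  have ha' : (2 : ℝ) ≤ a := by exact_mod_cast ha
  have hb' : (2 : ℝ) ≤ b := by exact_mod_cast hb
  have hQpos : 0 < (a : ℝ) * b := by positivity
  set α := √((a : ℝ) * b) with hαdef
  have hα : 0 < α := Real.sqrt_pos.2 hQpos
  have hQ : α ^ 2 = (a : ℝ) * b := Real.sq_sqrt hQpos.le
  have hz := isHermitian h
  have hr := u_one_rational h ha hb hn hodd hF0 hF hα hQ hz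
  rcases niven_step hn (q := (a : ℚ) * b) (by push_cast; ring) hQpos hQ hr with h1 | h1 | h1
  · exact Or.inl h1
  · exact Or.inr h1
  · subst h1
    exact (not_twelve h ha hb hF0 hF hα hQ hz hr).elim

end Cfsg.Agent.Lib.FeitHigman.Final
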