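import Mathlib
import Cfsg.Agent.Lib.BNPair.Parabolic
import Cfsg.Agent.Lib.FeitHigman.Trace

set_option autoImplicit false
set_option linter.unusedSimpArgs false
set_option linter.unusedSectionVars false

/-! The relation matrices on `G / B` attached to a `(B,N)`-pair. -/

namespace Cfsg.Agent.Lib.FeitHigman.Rel

open Cfsg DoubleCoset Matrix Cfsg.Agent.Lib.BNPair.Basic Cfsg.Agent.Lib.BNPair.Parabolic

variable {G : Type*} [Group G] (P : Cfsg.BNPair G)

/-- the indicator matrix of the relation `x⁻¹ y ∈ D` on `G / B`. -/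
noncomputable def ind (D : Set G) : Matrix (G ⧸ P.B) (G ⧸ P.B) ℝ :=
  open Classical in fun x y => if x.out⁻¹ * y.out ∈ D then 1 else 0

/-- the integer indicator matrix. -/
noncomputable def indZ (D : Set G) : Matrix (G ⧸ P.B) (G ⧸ P.B) ℤ :=
  open Classical in fun x y => if x.out⁻¹ * y.out ∈ D then 1 else 0

theorem indZ_map (D : Set G) : (indZ P D).map (Int.castRingHom ℝ) = ind P D := by
  ext x y
  simp only [Matrix.map_apply, indZ, ind]
  split_ifs <;> simp

/-- bi-invariance under `B`. -/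
def BiInv (D : Set G) : Prop := ∀ g ∈ D, ∀ b ∈ P.B, ∀ b' ∈ P.B, b * g * b' ∈ D

variable {P}

theorem biInv_C (n : G) : BiInv P (C P n) := by
  intro g hg b hb b' hb'
  exact C_mul_right (C_mul_left hg hb) hb'

theorem biInv_sub {H : Subgroup G} (hH : P.B ≤ H) : BiInv P (H : Set G) := by
  intro g hg b hb b' hb'
  exact H.mul_mem (H.mul_mem (hH hb) hg) (hH hb')

theorem out_rel {D : Set G} (hD : BiInv P D) (g h : G) :
    ((g : G ⧸ P.B).out⁻¹ * (h : G ⧸ P.B).out ∈ D) ↔ g⁻¹ * h ∈ D := by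
  obtain ⟨b, hb⟩ := QuotientGroup.mk_out_eq_mul P.B g
  obtain ⟨b', hb'⟩ := QuotientGroup.mk_out_eq_mul P.B h
  rw [hb, hb']
  constructor
  · intro hx
    have := hD _ hx b b.2 (b'⁻¹ : P.B) (b'⁻¹ : P.B).2
    convert this using 1
    simp only [Subgroup.coe_inv]
    group
  · intro hx
    have := hD _ hx (b⁻¹ : P.B) (b⁻¹ : P.B).2 b' b'.2
    convert this using 1
    simp only [Subgroup.coe_inv]
    group

theorem ind_mk {D : Set G} (hD : BiInv P D) (g h : G) :
    ind P D (g : G ⧸ P.B) (h : G ⧸ P.B) = open Classical in if g⁻¹ * h ∈ D then 1 else 0 := by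
  classical
  show (if _ then _ else _) = _
  by_cases h' : g⁻¹ * h ∈ D
  · rw [if_pos ((out_rel hD g h).2 h'), if_pos h']
  · rw [if_neg (mt (out_rel hD g h).1 h'), if_neg h']

theorem ind_eq_out (D : Set G) (x y : G ⧸ P.B) :
    ind P D x y = open Classical in if x.out⁻¹ * y.out ∈ D then 1 else 0 := rfl

theorem C_one_eq : C P (1 : G) = (P.B : Set G) := by
  ext g
  constructor
  · intro hg
    exact C_one_eq_of_mem P.B.one_mem hg
  · intro hg
    exact mem_C.2 ⟨g, hg, 1, P.B.one_mem, by simp⟩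

variable [Fintype (G ⧸ P.B)] [DecidableEq (G ⧸ P.B)]

theorem ind_B : ind P (P.B : Set G) = 1 := by
  ext x y
  rw [ind_eq_out, Matrix.one_apply]
  by_cases hxy : x = y
  · subst hxy
    simp [P.B.one_mem]
  · have : x.out⁻¹ * y.out ∉ (P.B : Set G) := by
      intro h
      apply hxy
      have h2 : (x.out : G ⧸ P.B) = (y.out : G ⧸ P.B) := QuotientGroup.eq.2 h
      simpa using h2
    simp [hxy, this]

theorem ind_C_one : ind P (C P (1 : G)) = 1 := by
  rw [C_one_eq, ind_B]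

omit [Fintype (G ⧸ P.B)] [DecidableEq (G ⧸ P.B)] in
/-- `C a * C m ⊆ C (a m)` for a length increasing step. -/
theorem C_mul_C {a m x y : G} (ha : a ∈ P.S) (hm : m ∈ P.N) (hle : len P m ≤ len P (a * m))
    (hx : x ∈ C P a) (hy : y ∈ C P m) : x * y ∈ C P (a * m) := by
  obtain ⟨b₁, hb₁, b₂, hb₂, rfl⟩ := mem_C.1 hx
  obtain ⟨b₃, hb₃, b₄, hb₄, rfl⟩ := mem_C.1 hy
  have h1 := s_b_n_mem hm ha hle (P.B.mul_mem hb₂ hb₃)
  have e : b₁ * a * b₂ * (b₃ * m * b₄) = b₁ * (a * (b₂ * b₃) * m) * b₄ := by group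
  rw [e]
  exact C_mul_right (C_mul_left h1 hb₁) hb₄

omit [Fintype (G ⧸ P.B)] [DecidableEq (G ⧸ P.B)] in
/-- the middle point of a length increasing step is unique. -/
theorem unique_mid {a m g t t' h : G} (ha : a ∈ P.S) (hm : m ∈ P.N)
    (hle : len P m ≤ len P (a * m)) (h1 : g⁻¹ * t ∈ C P a) (h2 : t⁻¹ * h ∈ C P m)
    (h3 : g⁻¹ * t' ∈ C P a) (h4 : t'⁻¹ * h ∈ C P m) : t⁻¹ * t' ∈ P.B := by
  obtain ⟨b₁, hb₁, b₂, hb₂, e₁⟩ := mem_C.1 h1
  obtain ⟨b₃, hb₃, b₄, hb₄, e₃⟩ := mem_C.1 h3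
  -- `γ = a⁻¹ b₃⁻¹ b₁ a`
  set γ := a⁻¹ * (b₃⁻¹ * b₁) * a with hγ
  have hβ : b₃⁻¹ * b₁ ∈ P.B := P.B.mul_mem (P.B.inv_mem hb₃) hb₁
  have hJ : ({a} : Set G) ⊆ P.S := by simpa using ha
  have haP : a ∈ P.parabolic {a} := closure_le_parabolic _ (Subgroup.subset_closure rfl)
  have hγP : γ ∈ P.parabolic {a} :=
    Subgroup.mul_mem _ (Subgroup.mul_mem _ (Subgroup.inv_mem _ haP) (B_le_parabolic _ hβ)) haP
  have e5 : t'⁻¹ * t = b₄⁻¹ * γ * b₂ := by
    have : t = g * (b₁ * a * b₂) := by rw [← e₁]; group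
    have h' : t' = g * (b₃ * a * b₄) := by rw [← e₃]; group
    rw [this, h', hγ]
    group
  have e6 : t'⁻¹ * h = b₄⁻¹ * γ * b₂ * (t⁻¹ * h) := by
    rw [← e5]; group
  rcases (mem_parabolic_singleton ha γ).1 hγP with hγB | hγC
  · -- done
    have h5 : t'⁻¹ * t ∈ P.B := by
      rw [e5]
      exact P.B.mul_mem (P.B.mul_mem (P.B.inv_mem hb₄) hγB) hb₂
    have := P.B.inv_mem h5
    simpa using this
  · exfalso
    have h6 : b₄⁻¹ * γ * b₂ ∈ C P a := C_mul_right (C_mul_left hγC (P.B.inv_mem hb₄)) hb₂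
    have h7 : t'⁻¹ * h ∈ C P (a * m) := by
      rw [e6]
      exact C_mul_C ha hm hle h6 h2
    have h8 := C_eq_of_mem_both h7 h4
    have h9 := (C_eq_iff (P.N.mul_mem (S_mem_N ha) hm) hm).1 h8
    have h10 := len_congr h9
    exact len_ne ha hm h10

/-- Multiplication of relation matrices along a length increasing step. -/
theorem ind_mul_ind {a m : G} (ha : a ∈ P.S) (hm : m ∈ P.N) (hle : len P m ≤ len P (a * m)) :
    ind P (C P a) * ind P (C P m) = ind P (C P (a * m)) := by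
  classical
  ext x y
  rw [Matrix.mul_apply]
  simp only [ind_eq_out]
  set g := x.out
  set h := y.out
  by_cases hgh : g⁻¹ * h ∈ C P (a * m)
  · rw [if_pos hgh]
    obtain ⟨b₁, hb₁, b₂, hb₂, e⟩ := mem_C.1 hgh
    -- the middle point
    set t : G := g * (b₁ * a) with ht
    have ht1 : g⁻¹ * t ∈ C P a := by
      rw [ht]
      have : g⁻¹ * (g * (b₁ * a)) = b₁ * a * 1 := by group
      rw [this]
      exact mem_C.2 ⟨b₁, hb₁, 1, P.B.one_mem, rfl⟩
    have ht2 : t⁻¹ * h ∈ C P m := by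
      have hh : h = g * (b₁ * (a * m) * b₂) := by rw [← e]; group
      rw [ht, hh]
      have : (g * (b₁ * a))⁻¹ * (g * (b₁ * (a * m) * b₂)) = 1 * m * b₂ := by group
      rw [this]
      exact mem_C.2 ⟨1, P.B.one_mem, b₂, hb₂, rfl⟩
    have hout1 : g⁻¹ * ((t : G ⧸ P.B).out) ∈ C P a := by
      obtain ⟨b, hb⟩ := QuotientGroup.mk_out_eq_mul P.B t
      rw [hb, ← mul_assoc]
      exact C_mul_right ht1 b.2
    have hout2 : ((t : G ⧸ P.B).out)⁻¹ * h ∈ C P m := by
      obtain ⟨b, hb⟩ := QuotientGroup.mk_out_eq_mul P.B t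
      rw [hb]
      have : (t * (b : G))⁻¹ * h = (b : G)⁻¹ * (t⁻¹ * h) * 1 := by group
      rw [this]
      exact C_mul_right (C_mul_left ht2 (P.B.inv_mem b.2)) P.B.one_mem
    rw [Finset.sum_eq_single (t : G ⧸ P.B)]
    · rw [if_pos hout1, if_pos hout2, mul_one]
    · intro w _ hw
      by_cases hw1 : g⁻¹ * w.out ∈ C P a
      · by_cases hw2 : w.out⁻¹ * h ∈ C P m
        · exfalso
          apply hw
          have h3 := unique_mid ha hm hle hw1 hw2 hout1 hout2
          have h4 : ((w.out : G) : G ⧸ P.B) = (((t : G ⧸ P.B).out : G) : G ⧸ P.B) :=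
            QuotientGroup.eq.2 h3
          simpa using h4
        · rw [if_neg hw2, mul_zero]
      · rw [if_neg hw1, zero_mul]
    · intro h0
      exact absurd (Finset.mem_univ _) h0
  · rw [if_neg hgh]
    apply Finset.sum_eq_zero
    intro w _
    by_cases hw1 : g⁻¹ * w.out ∈ C P a
    · by_cases hw2 : w.out⁻¹ * h ∈ C P m
      · exfalso
        apply hgh
        have := C_mul_C ha hm hle hw1 hw2
        have e : g⁻¹ * w.out * (w.out⁻¹ * h) = g⁻¹ * h := by group
        rwa [e] at this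
      · rw [if_neg hw2, mul_zero]
    · rw [if_neg hw1, zero_mul]

/-- the diagonal of `ind (C n)` vanishes for `n ∉ B`. -/
theorem trace_ind {n : G} (hn : n ∈ P.N) (hnB : n ∉ P.B) : trace (ind P (C P n)) = 0 := by
  apply Finset.sum_eq_zero
  intro x _
  simp only [Matrix.diag_apply, ind_eq_out, inv_mul_cancel]
  rw [if_neg]
  intro h
  have h' : (1 : G) ∈ C P n := by simpa using h
  have h1 := C_eq_of_mem h'
  have h3 := (C_eq_iff P.N.one_mem hn).1 h1
  apply hnB
  simpa using h3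

omit [Fintype (G ⧸ P.B)] [DecidableEq (G ⧸ P.B)] in
theorem C_inv_eq {s : G} (hs : s ∈ P.S) : C P s⁻¹ = C P s := by
  apply C_eq_of_inv_mul_mem
  have : (s⁻¹)⁻¹ * s = s * s := by group
  rw [this]
  exact P.sq_mem s hs

theorem ind_transpose {s : G} (hs : s ∈ P.S) : (ind P (C P s))ᵀ = ind P (C P s) := by
  classical
  ext x y
  rw [Matrix.transpose_apply, ind_eq_out, ind_eq_out]
  have : y.out⁻¹ * x.out ∈ C P s ↔ x.out⁻¹ * y.out ∈ C P s := by
    constructor
    · intro h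
      have h1 := inv_mem_C h
      rw [C_inv_eq hs] at h1
      simpa using h1
    · intro h
      have h1 := inv_mem_C h
      rw [C_inv_eq hs] at h1
      simpa using h1
  simp only [this]

/-- trace of a product of relation matrices. -/
theorem trace_ind_mul {g h : G} (hg : g ∈ P.N) (hh : h ∈ P.N) (hgh : g * h ∉ P.B) :
    trace (ind P (C P g) * ind P (C P h)) = 0 := by
  classical
  apply Finset.sum_eq_zero
  intro x _
  rw [Matrix.diag_apply, Matrix.mul_apply]
  apply Finset.sum_eq_zero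
  intro y _
  simp only [ind_eq_out]
  by_cases h1 : x.out⁻¹ * y.out ∈ C P g
  · by_cases h2 : y.out⁻¹ * x.out ∈ C P h
    · exfalso
      apply hgh
      have h3 := inv_mem_C h1
      have e : (x.out⁻¹ * y.out)⁻¹ = y.out⁻¹ * x.out := by group
      rw [e] at h3
      have h4 := C_eq_of_mem_both h3 h2
      have h5 := (C_eq_iff (P.N.inv_mem hg) hh).1 h4
      simpa using h5
    · rw [if_neg h2, mul_zero]
  · rw [if_neg h1, zero_mul]

end Cfsg.Agent.Lib.FeitHigman.Rel
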