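import Mathlib
import Cfsg.Agent.Lib.FeitHigman.Rel
import Cfsg.Agent.Lib.FeitHigman.Hecke

set_option autoImplicit false
set_option linter.unusedSimpArgs false
set_option linter.unusedSectionVars false

/-! The quadratic relation for the relation matrices `ind (C s)`. -/

namespace Cfsg.Agent.Lib.FeitHigman.Rel

open Cfsg DoubleCoset Matrix Cfsg.Agent.Lib.BNPair.Basic Cfsg.Agent.Lib.BNPair.Parabolic
  Cfsg.Agent.Lib.FeitHigman.Hecke

variable {G : Type*} [Group G] {P : Cfsg.BNPair G}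

theorem ind_smul {D : Set G} (hD : BiInv P D) (g : G) (x y : G ⧸ P.B) :
    ind P D (g • x) (g • y) = ind P D x y := by
  classical
  obtain ⟨u, rfl⟩ := QuotientGroup.mk_surjective x
  obtain ⟨v, rfl⟩ := QuotientGroup.mk_surjective y
  rw [MulAction.Quotient.smul_coe, MulAction.Quotient.smul_coe]
  rw [ind_mk hD, ind_mk hD]
  have : (g * u)⁻¹ * (g * v) = u⁻¹ * v := by group
  simp only [smul_eq_mul, this]

variable [Fintype (G ⧸ P.B)] [DecidableEq (G ⧸ P.B)]

theorem row_sum_eq {D : Set G} (hD : BiInv P D) (x : G ⧸ P.B) :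
    ∑ y, ind P D x y = ∑ y, ind P D ((1 : G) : G ⧸ P.B) y := by
  obtain ⟨g, rfl⟩ := QuotientGroup.mk_surjective x
  have e : ((g : G) : G ⧸ P.B) = g • (((1 : G)) : G ⧸ P.B) := by
    rw [MulAction.Quotient.smul_coe]
    simp
  rw [e, ← Equiv.sum_comp (MulAction.toPerm g)]
  refine Finset.sum_congr rfl fun y _ => ?_
  exact ind_smul hD g _ y

/-- the parameter `q_s`. -/
noncomputable def qOf (P : Cfsg.BNPair G) [Fintype (G ⧸ P.B)] (s : G) : ℕ :=
  open Classical in
  (Finset.univ.filter (fun y : G ⧸ P.B =>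
    (((1 : G) : G ⧸ P.B)).out⁻¹ * y.out ∈ C P s)).card

theorem row_sum_C (s : G) (x : G ⧸ P.B) : ∑ y, ind P (C P s) x y = (qOf P s : ℝ) := by
  classical
  rw [row_sum_eq (biInv_C s) x]
  simp only [ind_eq_out]
  rw [Finset.sum_boole]
  rfl

theorem two_le_qOf {s : G} (hs : s ∈ P.S) : 2 ≤ qOf P s := by
  classical
  obtain ⟨b, hb, hn⟩ := exists_not_mem_B hs
  have h1 : ∀ g : G, g ∈ C P s → ((g : G) : G ⧸ P.B) ∈ (Finset.univ.filter (fun y : G ⧸ P.B =>
      (((1 : G) : G ⧸ P.B)).out⁻¹ * y.out ∈ C P s)) := by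
    intro g hg
    rw [Finset.mem_filter]
    refine ⟨Finset.mem_univ _, ?_⟩
    rw [out_rel (biInv_C s)]
    simpa using hg
  have hlt : 1 < qOf P s := by
    unfold qOf
    rw [Finset.one_lt_card]
    refine ⟨((s : G) : G ⧸ P.B), h1 s (self_mem_C s), ((b⁻¹ * s : G) : G ⧸ P.B),
      h1 _ (C_mul_left (self_mem_C s) (P.B.inv_mem hb)), ?_⟩
    intro he
    have h2 := QuotientGroup.eq.1 he
    apply hn
    have h3 : s⁻¹ * (b⁻¹ * s) ∈ P.B := h2
    have e2 : s * b * s = (s * s) * (s⁻¹ * (b⁻¹ * s))⁻¹ := by group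
    rw [e2]
    exact P.B.mul_mem (P.sq_mem s hs) (P.B.inv_mem h3)
  exact hlt

theorem ind_parabolic {s : G} (hs : s ∈ P.S) :
    ind P ((P.parabolic {s} : Subgroup G) : Set G) = ind P (C P s) + 1 := by
  classical
  ext x y
  rw [Matrix.add_apply, ← ind_B (P := P)]
  simp only [ind_eq_out]
  have hdisj : ¬ (x.out⁻¹ * y.out ∈ C P s ∧ x.out⁻¹ * y.out ∈ (P.B : Set G)) := by
    rintro ⟨h1, h2⟩
    apply s_not_mem_B hs
    exact C_one_eq_of_mem h2 (by
      rw [C_eq_of_mem h1]
      exact self_mem_C _)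
  have hiff := mem_parabolic_singleton hs (x.out⁻¹ * y.out)
  by_cases h1 : x.out⁻¹ * y.out ∈ C P s
  · have h2 : x.out⁻¹ * y.out ∉ (P.B : Set G) := fun h => hdisj ⟨h1, h⟩
    have h3 : x.out⁻¹ * y.out ∈ ((P.parabolic {s} : Subgroup G) : Set G) := hiff.2 (Or.inr h1)
    rw [if_pos h1, if_neg h2, if_pos h3]
    simp
  · by_cases h2 : x.out⁻¹ * y.out ∈ (P.B : Set G)
    · have h3 : x.out⁻¹ * y.out ∈ ((P.parabolic {s} : Subgroup G) : Set G) := hiff.2 (Or.inl h2)
      rw [if_neg h1, if_pos h2, if_pos h3]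
      simp
    · have h3 : x.out⁻¹ * y.out ∉ ((P.parabolic {s} : Subgroup G) : Set G) := by
        intro h
        rcases hiff.1 h with h | h
        · exact h2 h
        · exact h1 h
      rw [if_neg h1, if_neg h2, if_neg h3]
      simp

theorem quad_ind {s : G} (hs : s ∈ P.S) : Quad (ind P (C P s)) (qOf P s : ℝ) := by
  classical
  set T := ind P (C P s) with hT
  set q : ℝ := (qOf P s : ℝ) with hq
  have hsub : P.B ≤ P.parabolic {s} := B_le_parabolic _
  have hbi := biInv_sub (P := P) hsub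
  have hA : (T + 1) * (T + 1) = (q + 1) • (T + 1) := by
    rw [hT, ← ind_parabolic hs]
    ext x y
    rw [Matrix.mul_apply, Matrix.smul_apply, smul_eq_mul]
    simp only [ind_eq_out]
    set H : Set G := ((P.parabolic {s} : Subgroup G) : Set G) with hH
    have hrow : ∑ w, ind P H x w = q + 1 := by
      rw [ind_parabolic hs]
      simp only [Matrix.add_apply]
      rw [Finset.sum_add_distrib, row_sum_C, Finset.sum_eq_single x]
      · simp [hq]
      · intro w _ hw
        rw [Matrix.one_apply_ne hw.symm]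
      · intro h0
        exact absurd (Finset.mem_univ _) h0
    by_cases hxy : x.out⁻¹ * y.out ∈ H
    · rw [if_pos hxy, mul_one, ← hrow]
      refine Finset.sum_congr rfl fun w _ => ?_
      rw [ind_eq_out]
      by_cases h1 : x.out⁻¹ * w.out ∈ H
      · have h2 : w.out⁻¹ * y.out ∈ H := by
          have e : w.out⁻¹ * y.out = (x.out⁻¹ * w.out)⁻¹ * (x.out⁻¹ * y.out) := by group
          rw [e]
          exact Subgroup.mul_mem _ (Subgroup.inv_mem _ h1) hxy
        rw [if_pos h1, if_pos h2, mul_one]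
      · rw [if_neg h1, zero_mul]
    · rw [if_neg hxy, mul_zero]
      apply Finset.sum_eq_zero
      intro w _
      by_cases h1 : x.out⁻¹ * w.out ∈ H
      · by_cases h2 : w.out⁻¹ * y.out ∈ H
        · exfalso
          apply hxy
          have e : x.out⁻¹ * y.out = (x.out⁻¹ * w.out) * (w.out⁻¹ * y.out) := by group
          rw [e]
          exact Subgroup.mul_mem _ h1 h2
        · rw [if_neg h2, mul_zero]
      · rw [if_neg h1, zero_mul]
  unfold Quad
  have e : T * T = (T + 1) * (T + 1) - T - T - 1 := by noncomm_ring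
  rw [e, hA]
  module

theorem row_vec (s : G) :
    ind P (C P s) *ᵥ (fun _ => (1 : ℝ)) = (qOf P s : ℝ) • (fun _ => (1 : ℝ)) := by
  ext x
  simp only [Matrix.mulVec, dotProduct, mul_one, Pi.smul_apply, smul_eq_mul, row_sum_C]

end Cfsg.Agent.Lib.FeitHigman.Rel
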