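import Mathlib
import Cfsg.Agent.Lib.BNPair.Parabolic
import Cfsg.Agent.Lib.FeitHigman.Trace

set_option autoImplicit false
set_option linter.unusedSimpArgs false
set_option linter.unusedSectionVars false

/-! The Weyl group `N / (B ∩ N)` of a rank two `(B,N)`-pair: dihedral of order `2 n`, and
alternating words of length at most `n` are reduced. -/

namespace Cfsg.Agent.Lib.FeitHigman.Weyl

open Cfsg DoubleCoset Cfsg.Agent.Lib.BNPair.Basic Cfsg.Agent.Lib.BNPair.Parabolic
  Cfsg.Agent.Lib.FeitHigman.Trace

variable {G : Type*} [Group G] (P : Cfsg.BNPair G)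

/-- the subgroup `B ∩ N` of `N`. -/
abbrev HH : Subgroup P.N := (P.B ⊓ P.N).subgroupOf P.N

instance normal_HH : (HH P).Normal := by
  constructor
  intro x hx g
  rw [Subgroup.mem_subgroupOf] at hx ⊢
  refine ⟨?_, ?_⟩
  · exact P.conj_mem g.1 g.2 x.1 hx
  · exact P.N.mul_mem (P.N.mul_mem g.2 x.2) (P.N.inv_mem g.2)

/-- the Weyl group -/
abbrev WW : Type _ := P.N ⧸ HH P

variable {P}

/-- the class of an element of `N` -/
def toW {g : G} (hg : g ∈ P.N) : WW P := QuotientGroup.mk ⟨g, hg⟩

theorem toW_eq_iff {g h : G} (hg : g ∈ P.N) (hh : h ∈ P.N) :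
    toW hg = toW hh ↔ g⁻¹ * h ∈ P.B := by
  unfold toW
  rw [QuotientGroup.eq, Subgroup.mem_subgroupOf]
  constructor
  · intro h1
    exact h1.1
  · intro h1
    exact ⟨h1, P.N.mul_mem (P.N.inv_mem hg) hh⟩

theorem toW_mul {g h : G} (hg : g ∈ P.N) (hh : h ∈ P.N) :
    toW (P.N.mul_mem hg hh) = toW hg * toW hh := rfl

theorem toW_one : toW (P := P) P.N.one_mem = 1 := rfl

theorem toW_congr {g h : G} (e : g = h) (hg : g ∈ P.N) (hh : h ∈ P.N) : toW hg = toW hh := by
  subst e; rfl

theorem toW_eq_one_iff {g : G} (hg : g ∈ P.N) : toW hg = 1 ↔ g ∈ P.B := by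
  rw [← toW_one, toW_eq_iff]
  constructor
  · intro h
    have := P.B.inv_mem h
    simpa using this
  · intro h
    have := P.B.inv_mem h
    simpa using this

theorem toW_sq {s : G} (hs : s ∈ P.S) : toW (S_mem_N hs) * toW (S_mem_N hs) = 1 := by
  rw [← toW_mul, toW_eq_one_iff]
  exact P.sq_mem s hs

/-- `alt` of elements of `N` lies in `N`. -/
theorem alt_mem {a b : G} (ha : a ∈ P.N) (hb : b ∈ P.N) : ∀ k : ℕ, alt a b k ∈ P.N := by
  have key : ∀ (k : ℕ) (a b : G), a ∈ P.N → b ∈ P.N → alt a b k ∈ P.N := by
    intro k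
    induction k with
    | zero => intro a b _ _; exact P.N.one_mem
    | succ k ih =>
      intro a b ha hb
      rw [alt_succ]
      exact P.N.mul_mem ha (ih b a hb ha)
  exact fun k => key k a b ha hb

theorem toW_alt {a b : G} (ha : a ∈ P.N) (hb : b ∈ P.N) (k : ℕ) :
    toW (alt_mem ha hb k) = alt (toW ha) (toW hb) k := by
  have key : ∀ (k : ℕ) (a b : G) (ha : a ∈ P.N) (hb : b ∈ P.N),
      toW (alt_mem ha hb k) = alt (toW ha) (toW hb) k := by
    intro k
    induction k with
    | zero => intro a b ha hb; rfl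
    | succ k ih =>
      intro a b ha hb
      have := ih b a hb ha
      rw [alt_succ (toW ha), ← this, ← toW_mul]
      rfl
  exact key k a b ha hb

/-- alternating products of involutions. -/
theorem alt_eq_pow {R : Type*} [Group R] (a b : R) (ha : a * a = 1) (hb : b * b = 1) :
    ∀ k : ℕ, alt a b k = (a * b) ^ k * alt b a k := by
  have key : ∀ (k : ℕ) (a b : R), a * a = 1 → b * b = 1 → alt a b k = (a * b) ^ k * alt b a k := by
    intro k
    induction k with
    | zero => simp
    | succ k ih =>
      intro a b ha hb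
      have semi : a * (b * a) ^ k = (a * b) ^ k * a := by
        have h : SemiconjBy a (b * a) (a * b) := by
          unfold SemiconjBy; group
        exact (h.pow_right k).eq
      rw [alt_succ, ih b a hb ha, ← mul_assoc, semi, pow_succ, alt_succ b a]
      have e : (a * b) ^ k * (a * b) * (b * alt a b k) =
          (a * b) ^ k * a * (b * b) * alt a b k := by group
      rw [e, hb, mul_one]
  exact fun k => key k a b ha hb

/-- the alternating word as a list -/
def word (a b : G) : ℕ → List G
  | 0 => []
  | k + 1 => a :: word b a k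

theorem word_prod (a b : G) : ∀ k : ℕ, (word a b k).prod = alt a b k := by
  have key : ∀ (k : ℕ) (a b : G), (word a b k).prod = alt a b k := by
    intro k
    induction k with
    | zero => intro a b; rfl
    | succ k ih =>
      intro a b
      simp only [word, List.prod_cons, ih, alt_succ]
  exact fun k => key k a b

theorem word_length (a b : G) : ∀ k : ℕ, (word a b k).length = k := by
  have key : ∀ (k : ℕ) (a b : G), (word a b k).length = k := by
    intro k
    induction k with
    | zero => intro a b; rfl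
    | succ k ih =>
      intro a b
      simp only [word, List.length_cons, ih]
  exact fun k => key k a b

theorem word_mem {a b : G} (ha : a ∈ P.S) (hb : b ∈ P.S) (k : ℕ) : ∀ x ∈ word a b k, x ∈ P.S := by
  have key : ∀ (k : ℕ) (a b : G), a ∈ P.S → b ∈ P.S → ∀ x ∈ word a b k, x ∈ P.S := by
    intro k
    induction k with
    | zero => intro a b _ _ x hx; simp [word] at hx
    | succ k ih =>
      intro a b ha hb x hx
      simp only [word, List.mem_cons] at hx
      rcases hx with rfl | hx
      · exact ha
      · exact ih b a hb ha x hx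
  exact key k a b ha hb

/-- prefixes of alternating words -/
theorem word_prefix (a b : G) (k : ℕ) (l₁ : List G) (x : G) (l₂ : List G)
    (h : word a b k = l₁ ++ x :: l₂) :
    l₁.length < k ∧ l₁ = word a b l₁.length ∧ l₁ ++ [x] = word a b (l₁.length + 1) := by
  induction l₁ generalizing a b k with
  | nil =>
    cases k with
    | zero => simp [word] at h
    | succ k =>
      simp only [word, List.nil_append, List.cons.injEq] at h
      obtain ⟨rfl, _⟩ := h
      simp [word]
  | cons y l₁ ih =>
    cases k with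
    | zero => simp [word] at h
    | succ k =>
      simp only [word, List.cons_append, List.cons.injEq] at h
      obtain ⟨rfl, h⟩ := h
      obtain ⟨h1, h2, h3⟩ := ih b a k h
      refine ⟨by simpa using h1, ?_, ?_⟩
      · show a :: l₁ = a :: word b a l₁.length
        rw [← h2]
      · show a :: (l₁ ++ [x]) = a :: word b a (l₁.length + 1)
        rw [h3]

section Reduced

variable {a b : G} (ha : a ∈ P.S) (hb : b ∈ P.S)

include ha hb

theorem len_step {n k : ℕ} (hk : len P (alt b a k) = k) (hkn : k < n)
    (hne : ∀ j : ℕ, 0 < j → j < n → (toW (S_mem_N ha) * toW (S_mem_N hb)) ^ j ≠ 1) :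
    len P (a * alt b a k) = k + 1 := by
  have hmem := alt_mem (S_mem_N hb) (S_mem_N ha) k
  rcases len_mul_eq_or ha hmem with h | h
  · rw [h, hk]
  · exfalso
    rw [hk] at h
    have hlt : len P (a * (word b a k).prod) < (word b a k).length := by
      rw [word_prod, word_length]; omega
    obtain ⟨l₁, x, l₂, e, hB⟩ := exchange ha (word b a k) (word_mem hb ha k)
      (by rw [word_prod, word_length, hk]) hlt
    obtain ⟨h1, h2, h3⟩ := word_prefix b a k l₁ x l₂ e
    set i := l₁.length with hi
    have e1 : a * l₁.prod = alt a b (i + 1) := by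
      rw [h2, word_prod, alt_succ]
    have e2 : l₁.prod * x = alt b a (i + 1) := by
      have := congrArg List.prod h3
      rw [word_prod, List.prod_append] at this
      simpa using this
    rw [e1, e2] at hB
    have hW := (toW_eq_iff (alt_mem (S_mem_N ha) (S_mem_N hb) (i + 1))
      (alt_mem (S_mem_N hb) (S_mem_N ha) (i + 1))).2 hB
    rw [toW_alt (S_mem_N ha) (S_mem_N hb) (i + 1), toW_alt (S_mem_N hb) (S_mem_N ha) (i + 1),
      alt_eq_pow _ _ (toW_sq ha) (toW_sq hb)] at hW
    have h4 : (toW (S_mem_N ha) * toW (S_mem_N hb)) ^ (i + 1) = 1 := by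
      simpa using hW
    exact hne (i + 1) (by omega) (by omega) h4

theorem pow_ne_swap {n : ℕ}
    (hne : ∀ j : ℕ, 0 < j → j < n → (toW (S_mem_N ha) * toW (S_mem_N hb)) ^ j ≠ 1) :
    ∀ j : ℕ, 0 < j → j < n → (toW (S_mem_N hb) * toW (S_mem_N ha)) ^ j ≠ 1 := by
  intro j h1 h2 h3
  apply hne j h1 h2
  have e : toW (S_mem_N hb) * toW (S_mem_N ha) = (toW (S_mem_N ha) * toW (S_mem_N hb))⁻¹ := by
    rw [mul_inv_rev, inv_eq_of_mul_eq_one_left (toW_sq ha), inv_eq_of_mul_eq_one_left (toW_sq hb)]
  rw [e, inv_pow, inv_eq_one] at h3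
  exact h3

/-- alternating words of length at most `n` are reduced. -/
theorem len_alt {n : ℕ}
    (hne : ∀ j : ℕ, 0 < j → j < n → (toW (S_mem_N ha) * toW (S_mem_N hb)) ^ j ≠ 1) :
    ∀ k : ℕ, k ≤ n → len P (alt a b k) = k ∧ len P (alt b a k) = k := by
  intro k
  induction k with
  | zero =>
    intro _
    exact ⟨len_one, len_one⟩
  | succ k ih =>
    intro hk
    obtain ⟨h1, h2⟩ := ih (by omega)
    constructor
    · rw [alt_succ]
      exact len_step ha hb h2 (by omega) hne
    · rw [alt_succ]
      exact len_step hb ha h1 (by omega) (pow_ne_swap ha hb hne)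

theorem even_len_pow (k : ℕ) : Even (len P ((a * b) ^ k)) := by
  induction k with
  | zero => simp [len_one]
  | succ k ih =>
    have hm : (a * b) ^ k ∈ P.N := Subgroup.pow_mem _ (P.N.mul_mem (S_mem_N ha) (S_mem_N hb)) k
    have e : (a * b) ^ (k + 1) = a * (b * (a * b) ^ k) := by
      rw [pow_succ']; group
    rw [e]
    have h1 := len_mul_eq_or hb hm
    have h2 := len_mul_eq_or ha (P.N.mul_mem (S_mem_N hb) hm)
    rw [Nat.even_iff] at ih ⊢
    omega

end Reduced

/-- `|W| = 2 n`. -/
theorem index_eq [Finite G] {a b : G} (ha : a ∈ P.S) (hb : b ∈ P.S) (hS : P.S = {a, b}) :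
    (HH P).index = 2 * orderOf (toW (S_mem_N ha) * toW (S_mem_N hb)) := by
  set A := toW (S_mem_N ha) with hA
  set B' := toW (S_mem_N hb) with hB'
  set r := A * B' with hr
  set K := Subgroup.zpowers r with hK
  have hAA : A * A = 1 := toW_sq ha
  have hBB : B' * B' = 1 := toW_sq hb
  have hA1 : A⁻¹ = A := inv_eq_of_mul_eq_one_left hAA
  have hB1 : B'⁻¹ = B' := inv_eq_of_mul_eq_one_left hBB
  have hrK : r ∈ K := Subgroup.mem_zpowers r
  -- every element is in `K` or `A K`
  have hcover : ∀ x : WW P, x ∈ K ∨ A * x ∈ K := by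
    intro x
    obtain ⟨⟨g, hg⟩, rfl⟩ := QuotientGroup.mk_surjective x
    obtain ⟨l, hl, hrep⟩ := exists_rep hg
    have hW : (QuotientGroup.mk ⟨g, hg⟩ : WW P) = toW (prod_mem_N hl) :=
      (toW_eq_iff hg (prod_mem_N hl)).2 hrep
    rw [hW]
    clear hW hrep
    induction l with
    | nil =>
      left
      exact K.one_mem
    | cons s l ih =>
      have hl' : ∀ x ∈ l, x ∈ P.S := fun x hx => hl x (by simp [hx])
      have hs : s ∈ P.S := hl s (by simp)
      have ih' := ih hl'
      have hmul : toW (prod_mem_N hl) = toW (S_mem_N hs) * toW (prod_mem_N hl') := by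
        simp only [List.prod_cons]
        rfl
      rw [hmul]
      rw [hS] at hs
      rcases hs with rfl | hs
      · rcases ih' with h | h
        · right
          rw [← mul_assoc, hAA, one_mul]
          exact h
        · left
          exact h
      · rw [Set.mem_singleton_iff] at hs
        subst hs
        rcases ih' with h | h
        · right
          rw [← mul_assoc]
          exact K.mul_mem hrK h
        · left
          have e : B' * toW (prod_mem_N hl') = r⁻¹ * (A * toW (prod_mem_N hl')) := by
            rw [hr, mul_inv_rev, hA1, hB1, mul_assoc, ← mul_assoc A, hAA, one_mul]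
          rw [e]
          exact K.mul_mem (K.inv_mem hrK) h
  -- `A` is not in `K`
  have hAK : A ∉ K := by
    intro hmem
    have h1 : A ∈ Submonoid.powers r := (mem_powers_iff_mem_zpowers).2 hmem
    obtain ⟨m, hm⟩ := (Submonoid.mem_powers_iff _ _).1 h1
    have hpow : ∀ m : ℕ, r ^ m = toW (Subgroup.pow_mem _ (P.N.mul_mem (S_mem_N ha) (S_mem_N hb)) m) := by
      intro m
      induction m with
      | zero => rfl
      | succ m ih =>
        rw [pow_succ, ih]
        exact toW_congr (pow_succ _ _).symm _ _
    rw [hpow m] at hm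
    have h2 := (toW_eq_iff _ _).1 hm
    have h3 := len_congr h2
    have h4 := even_len_pow ha hb m
    rw [h3, len_S ha] at h4
    exact absurd h4 (by decide)
  have hidx : K.index = 2 := by
    rw [Subgroup.index_eq_two_iff]
    refine ⟨A, fun x => ?_⟩
    have hc := hcover x⁻¹
    have e : A * x⁻¹ = (x * A)⁻¹ := by
      rw [mul_inv_rev, hA1]
    rw [e, Subgroup.inv_mem_iff, Subgroup.inv_mem_iff] at hc
    by_cases h1 : x ∈ K
    · right
      refine ⟨h1, fun h2 => hAK ?_⟩
      have : A = x⁻¹ * (x * A) := by group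
      rw [this]
      exact K.mul_mem (K.inv_mem h1) h2
    · left
      rcases hc with h | h
      · exact absurd h h1
      · exact ⟨h, h1⟩
  have hcard := Subgroup.card_mul_index K
  rw [hidx, hK, Nat.card_zpowers] at hcard
  rw [Subgroup.index_eq_card, ← hcard]
  ring

end Cfsg.Agent.Lib.FeitHigman.Weyl
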