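import Mathlib
import Cfsg.Agent.Lib.FeitHigman.Final
import Cfsg.Agent.Lib.FeitHigman.RelQuad
import Cfsg.Agent.Lib.FeitHigman.Weyl

set_option autoImplicit false
set_option linter.unusedSimpArgs false
set_option linter.unusedSectionVars false

/-! The Feit-Higman theorem for a rank two `(B,N)`-pair. -/

namespace Cfsg.Agent.Lib.FeitHigman.Assembly

open Cfsg DoubleCoset Matrix Polynomial Cfsg.Agent.Lib.BNPair.Basic
  Cfsg.Agent.Lib.BNPair.Parabolic
  Cfsg.Agent.Lib.FeitHigman.Hecke Cfsg.Agent.Lib.FeitHigman.Trace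
  Cfsg.Agent.Lib.FeitHigman.Rel Cfsg.Agent.Lib.FeitHigman.Weyl

variable {G : Type*} [Group G] {P : Cfsg.BNPair G}

section

variable [Fintype (G ⧸ P.B)] [DecidableEq (G ⧸ P.B)]

/-- alternating products of relation matrices are relation matrices up to length `n`. -/
theorem alt_ind {a b : G} (ha : a ∈ P.S) (hb : b ∈ P.S) {n : ℕ}
    (hne : ∀ j : ℕ, 0 < j → j < n → (toW (S_mem_N ha) * toW (S_mem_N hb)) ^ j ≠ 1) :
    ∀ k : ℕ, k ≤ n →
      alt (ind P (C P a)) (ind P (C P b)) k = ind P (C P (alt a b k)) ∧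
      alt (ind P (C P b)) (ind P (C P a)) k = ind P (C P (alt b a k)) := by
  intro k
  induction k with
  | zero =>
    intro _
    simp only [alt_zero]
    exact ⟨ind_C_one.symm, ind_C_one.symm⟩
  | succ k ih =>
    intro hk
    obtain ⟨h1, h2⟩ := ih (by omega)
    obtain ⟨h3, h4⟩ := len_alt ha hb hne (k + 1) hk
    obtain ⟨h5, h6⟩ := len_alt ha hb hne k (by omega)
    constructor
    · rw [alt_succ, h2, alt_succ a]
      rw [alt_succ] at h3
      exact ind_mul_ind ha (alt_mem (S_mem_N hb) (S_mem_N ha) k) (by rw [h3, h6]; omega)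
    · rw [alt_succ, h1, alt_succ b]
      rw [alt_succ] at h4
      exact ind_mul_ind hb (alt_mem (S_mem_N ha) (S_mem_N hb) k) (by rw [h4, h5]; omega)

theorem alt_mulVec {T₁ T₂ : Matrix (G ⧸ P.B) (G ⧸ P.B) ℝ} {x y : ℝ}
    (h1 : T₁ *ᵥ (fun _ => (1 : ℝ)) = x • (fun _ => (1 : ℝ)))
    (h2 : T₂ *ᵥ (fun _ => (1 : ℝ)) = y • (fun _ => (1 : ℝ))) (k : ℕ) :
    alt T₁ T₂ k *ᵥ (fun _ => (1 : ℝ)) = alt x y k • (fun _ => (1 : ℝ)) := by
  have key : ∀ (k : ℕ) (T₁ T₂ : Matrix (G ⧸ P.B) (G ⧸ P.B) ℝ) (x y : ℝ),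
      T₁ *ᵥ (fun _ => (1 : ℝ)) = x • (fun _ => (1 : ℝ)) →
      T₂ *ᵥ (fun _ => (1 : ℝ)) = y • (fun _ => (1 : ℝ)) →
      alt T₁ T₂ k *ᵥ (fun _ => (1 : ℝ)) = alt x y k • (fun _ => (1 : ℝ)) := by
    intro k
    induction k with
    | zero => intro T₁ T₂ x y _ _; simp
    | succ k ih =>
      intro T₁ T₂ x y h1 h2
      rw [alt_succ, alt_succ, ← mulVec_mulVec, ih T₂ T₁ y x h2 h1, mulVec_smul, h1, smul_smul,
        mul_comm]
  exact key k T₁ T₂ x y h1 h2

end

/-- parameters are equal for odd `n`. -/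
theorem eq_of_alt_eq {x y : ℝ} (hx : 0 < x) (hy : 0 < y) {n : ℕ} (hn : ¬ Even n)
    (h : alt x y n = alt y x n) : x = y := by
  rw [Nat.not_even_iff_odd] at hn
  obtain ⟨m, rfl⟩ := hn
  rw [alt_succ, alt_succ, alt_two_mul, alt_two_mul, mul_comm y x] at h
  have : (x * y) ^ m ≠ 0 := pow_ne_zero _ (mul_pos hx hy).ne'
  exact mul_right_cancel₀ this h

theorem z_map {Ω : Type*} [Fintype Ω] [DecidableEq Ω] (M₁ M₂ : Matrix Ω Ω ℤ) (x y : ℕ) :
    (M₁ * M₂ + M₂ * M₁ - ((y : ℤ) - 1) • M₁ - ((x : ℤ) - 1) • M₂ +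
      (((x : ℤ) - 1) * ((y : ℤ) - 1)) • (1 : Matrix Ω Ω ℤ)).map (Int.castRingHom ℝ) =
    zOp (M₁.map (Int.castRingHom ℝ)) (M₂.map (Int.castRingHom ℝ)) (x : ℝ) (y : ℝ) := by
  have hsmul : ∀ (c : ℤ) (M : Matrix Ω Ω ℤ),
      (c • M).map (Int.castRingHom ℝ) = (c : ℝ) • M.map (Int.castRingHom ℝ) := by
    intro c M
    ext i j
    rw [Matrix.map_apply, Matrix.smul_apply, Matrix.smul_apply, Matrix.map_apply, smul_eq_mul,
      smul_eq_mul]
    simp
  have hmul : ∀ (M M' : Matrix Ω Ω ℤ), (M * M').map (Int.castRingHom ℝ) =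
      M.map (Int.castRingHom ℝ) * M'.map (Int.castRingHom ℝ) := by
    intro M M'
    exact Matrix.map_mul
  have hone : (1 : Matrix Ω Ω ℤ).map (Int.castRingHom ℝ) = 1 := by
    ext i j
    simp [Matrix.one_apply, apply_ite]
  unfold zOp
  rw [Matrix.map_add, Matrix.map_sub, Matrix.map_sub, Matrix.map_add, hmul, hmul, hsmul, hsmul,
    hsmul, hone]
  · push_cast
    rfl
  all_goals simp

theorem toW_pow {a b : G} (ha : a ∈ P.N) (hb : b ∈ P.N) (m : ℕ) :
    (toW ha * toW hb) ^ m = toW (Subgroup.pow_mem _ (P.N.mul_mem ha hb) m) := by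
  induction m with
  | zero => rfl
  | succ m ih =>
    rw [pow_succ, ih]
    exact toW_congr (pow_succ _ _).symm _ _

/-- The theorem. -/
theorem feit_higman [Finite G] (h2 : P.rank = 2) :
    ((P.B ⊓ P.N).subgroupOf P.N).index ∈ ({4, 6, 8, 12, 16} : Set ℕ) := by
  classical
  let _ : Fintype (G ⧸ P.B) := Fintype.ofFinite _
  -- the two generators
  have hcard : Nat.card P.S = 2 := h2
  obtain ⟨⟨a, ha⟩, ⟨b, hb⟩, hab, huniv⟩ := Nat.card_eq_two_iff.1 hcard
  have hS : P.S = {a, b} := by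
    ext x
    constructor
    · intro hx
      have : (⟨x, hx⟩ : P.S) ∈ (Set.univ : Set P.S) := Set.mem_univ _
      rw [← huniv] at this
      rcases this with h | h
      · left; exact congrArg Subtype.val h
      · right; exact congrArg Subtype.val h
    · rintro (rfl | rfl)
      · exact ha
      · exact hb
  have hab' : a ≠ b := fun h => hab (Subtype.ext h)
  set A := toW (S_mem_N ha) with hA
  set B' := toW (S_mem_N hb) with hB'
  set r := A * B' with hr
  set n := orderOf r with hn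
  have hidx : ((P.B ⊓ P.N).subgroupOf P.N).index = 2 * n := index_eq ha hb hS
  have hnpos : 0 < n := orderOf_pos r
  have hAA : A * A = 1 := toW_sq ha
  have hBB : B' * B' = 1 := toW_sq hb
  have hn1 : n ≠ 1 := by
    intro h1
    rw [hn, orderOf_eq_one_iff] at h1
    apply hab'
    apply P.inj a ha b hb
    rw [← toW_eq_iff (S_mem_N ha) (S_mem_N hb)]
    have h3 : B' = A⁻¹ := eq_inv_of_mul_eq_one_right h1
    rw [inv_eq_of_mul_eq_one_left hAA] at h3
    exact h3.symm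
  have hne : ∀ j : ℕ, 0 < j → j < n → r ^ j ≠ 1 := fun j hj hjn =>
    pow_ne_one_of_lt_orderOf hj.ne' hjn
  have hrn : r ^ n = 1 := pow_orderOf_eq_one r
  rw [hidx]
  by_cases hn5 : n < 5
  · have h3 : n = 2 ∨ n = 3 ∨ n = 4 := by omega
    rcases h3 with h3 | h3 | h3 <;> rw [h3] <;> simp
  · push Not at hn5
    -- the matrices
    set T₁ := ind P (C P a) with hT₁
    set T₂ := ind P (C P b) with hT₂
    set q₁ := qOf P a with hq₁
    set q₂ := qOf P b with hq₂
    have hmat := alt_ind ha hb hne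
    have hbraid : alt T₁ T₂ n = alt T₂ T₁ n := by
      rw [(hmat n le_rfl).1, (hmat n le_rfl).2]
      have : C P (alt a b n) = C P (alt b a n) := by
        apply C_eq_of_inv_mul_mem
        rw [← toW_eq_iff (alt_mem (S_mem_N ha) (S_mem_N hb) n) (alt_mem (S_mem_N hb) (S_mem_N ha) n),
          toW_alt (S_mem_N ha) (S_mem_N hb) n, toW_alt (S_mem_N hb) (S_mem_N ha) n,
          alt_eq_pow _ _ hAA hBB, hrn, one_mul]
      rw [this]
    have hh : Hyp T₁ T₂ (q₁ : ℝ) (q₂ : ℝ) n := by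
      refine ⟨ind_transpose ha, ind_transpose hb, quad_ind ha, quad_ind hb,
        trace_ind (S_mem_N ha) (s_not_mem_B ha), trace_ind (S_mem_N hb) (s_not_mem_B hb), ?_,
        hbraid⟩
      intro j hj1 hjn
      have hjB : (a * b) ^ j ∉ P.B := by
        intro hmem
        have h3 := (toW_eq_one_iff (Subgroup.pow_mem _ (P.N.mul_mem (S_mem_N ha) (S_mem_N hb)) j)).2
          hmem
        rw [← toW_pow (S_mem_N ha) (S_mem_N hb)] at h3
        exact hne j hj1 hjn h3
      have hprod : alt a b (j + j) = (a * b) ^ j := by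
        rw [← two_mul, alt_two_mul]
      rw [← alt_two_mul, two_mul, alt_add]
      rw [alt_add] at hprod
      obtain ⟨h3, h4⟩ := hmat j hjn.le
      by_cases hev : Even j
      · rw [if_pos hev] at hprod ⊢
        rw [h3]
        apply trace_ind_mul (alt_mem (S_mem_N ha) (S_mem_N hb) j)
          (alt_mem (S_mem_N ha) (S_mem_N hb) j)
        rw [hprod]
        exact hjB
      · rw [if_neg hev] at hprod ⊢
        rw [h3, h4]
        apply trace_ind_mul (alt_mem (S_mem_N ha) (S_mem_N hb) j)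
          (alt_mem (S_mem_N hb) (S_mem_N ha) j)
        rw [hprod]
        exact hjB
    have hq₁2 : 2 ≤ q₁ := two_le_qOf ha
    have hq₂2 : 2 ≤ q₂ := two_le_qOf hb
    have hodd : ¬ Even n → q₁ = q₂ := by
      intro hev
      have h3 := alt_mulVec (row_vec (P := P) a) (row_vec (P := P) b) n
      have h4 := alt_mulVec (row_vec (P := P) b) (row_vec (P := P) a) n
      rw [← hbraid] at h4
      rw [h3] at h4
      have h5 := congrFun h4 ((1 : G) : G ⧸ P.B)
      simp only [Pi.smul_apply, smul_eq_mul, mul_one] at h5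
      have hq₁0 : (0 : ℝ) < q₁ := by
        have : 0 < q₁ := by omega
        exact_mod_cast this
      have hq₂0 : (0 : ℝ) < q₂ := by
        have : 0 < q₂ := by omega
        exact_mod_cast this
      have h6 := eq_of_alt_eq hq₁0 hq₂0 hev h5
      exact_mod_cast h6
    -- integrality
    set z' : Matrix (G ⧸ P.B) (G ⧸ P.B) ℤ :=
      indZ P (C P a) * indZ P (C P b) + indZ P (C P b) * indZ P (C P a) -
        ((q₂ : ℤ) - 1) • indZ P (C P a) - ((q₁ : ℤ) - 1) • indZ P (C P b) +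
        (((q₁ : ℤ) - 1) * ((q₂ : ℤ) - 1)) • (1 : Matrix (G ⧸ P.B) (G ⧸ P.B) ℤ) with hz'
    have hzmap : z'.map (Int.castRingHom ℝ) = zOp T₁ T₂ (q₁ : ℝ) (q₂ : ℝ) := by
      rw [hz', z_map, indZ_map, indZ_map]
    set F : ℚ[X] := z'.charpoly.map (Int.castRingHom ℚ) with hF
    have hF0 : F ≠ 0 := ((charpoly_monic z').map _).ne_zero
    have hFmap : F.map (algebraMap ℚ ℝ) = (zOp T₁ T₂ (q₁ : ℝ) (q₂ : ℝ)).charpoly := by
      rw [← hzmap, charpoly_map, hF, Polynomial.map_map]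
      congr 1
    rcases Cfsg.Agent.Lib.FeitHigman.Final.main hh hq₁2 hq₂2 hn5 hodd hF0 hFmap with h3 | h3 <;>
      rw [h3] <;> simp

end Cfsg.Agent.Lib.FeitHigman.Assembly
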